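import Cfsg.Agent.Helper3.Carter

set_option autoImplicit false
open Cfsg
open scoped Pointwise

/-!
Helper library (helper3): existence of Carter subgroups in finite solvable groups.
-/

namespace Cfsg.Agent.Helper3

universe u

/-- a subgroup `X` of order prime to the index of a normal subgroup `Q` (all inside `C`)
lies in `Q` -/
theorem le_of_coprime_relIndex {G : Type u} [Group G] [Finite G] (Q X C : Subgroup G)
    (hXC : X ≤ C) (hCN : C ≤ Subgroup.normalizer (Q : Set G))
    (hcop : (Nat.card X).Coprime (Q.relIndex C)) : X ≤ Q := by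
  haveI : (Q.subgroupOf C).Normal := Subgroup.normal_subgroupOf_of_le_normalizer hCN
  rw [← Subgroup.relIndex_eq_one]
  have h1 : (Q.subgroupOf C).relIndex (X.subgroupOf C) ∣ (Q.subgroupOf C).index :=
    Subgroup.relIndex_dvd_index_of_normal _ _
  rw [Subgroup.relIndex_subgroupOf hXC] at h1
  have h2 : Q.relIndex X ∣ Nat.card X := Subgroup.relIndex_dvd_card Q X
  have h3 := Nat.dvd_gcd h2 h1
  have h4 : (Nat.card X).gcd (Q.subgroupOf C).index = 1 := hcop
  rw [h4] at h3
  exact Nat.dvd_one.mp h3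

theorem carter_exists_aux : ∀ (n : ℕ) (G : Type u) [Group G] [Finite G] [Group.IsSolvable G],
    Nat.card G = n → ∃ C : Subgroup G, Cfsg.IsCarterSubgroup C := by
  intro n
  induction n using Nat.strong_induction_on with
  | _ n ih =>
  intro G _ _ _ hn
  rcases subsingleton_or_nontrivial G with hs | hnt
  · exact ⟨⊤, inferInstance, Subgroup.normalizer_eq_top ⊤⟩
  obtain ⟨N, hNn, hNne, hNmin⟩ := Cfsg.Agent.Helper1.exists_minimal_normal (G := G)
  haveI := hNn
  obtain ⟨hNcomm, p, hp, hexp⟩ := Cfsg.Agent.S0043.result N hNne hNmin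
  haveI : Fact p.Prime := ⟨hp⟩
  have hNp : IsPGroup p N := isPGroup_of_exp N p hexp
  obtain ⟨k, hk⟩ := IsPGroup.iff_card.mp hNp
  have hlt : Nat.card (G ⧸ N) < n := by rw [← hn]; exact card_quot_lt_of_ne_bot N hNne
  obtain ⟨Hb, hHb⟩ := ih _ hlt (G ⧸ N) rfl
  have hHbne : Nat.card Hb ≠ 0 := Nat.card_pos.ne'
  obtain ⟨m, hm⟩ : ∃ m, m = Nat.card Hb / p ^ (Nat.card Hb).factorization p := ⟨_, rfl⟩
  obtain ⟨a, ha⟩ : ∃ a, a = (Nat.card Hb).factorization p := ⟨_, rfl⟩
  have hsplit : Nat.card Hb = m * p ^ a := by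
    rw [hm, ha]; exact (Nat.div_mul_cancel (Nat.ordProj_dvd _ _)).symm
  have hcopm : m.Coprime p := by
    rw [hm]; exact (Nat.coprime_ordCompl hp hHbne).symm
  obtain ⟨Qb, hQbH, hQbcard, hQbN⟩ := exists_normal_hall_of_nilpotent Hb hHb.1 _ _ hsplit
    (Nat.Coprime.pow_right _ hcopm)
  have hLH : Qb.comap (QuotientGroup.mk' N) ≤ Hb.comap (QuotientGroup.mk' N) :=
    Subgroup.comap_mono hQbH
  have hNL : N ≤ Qb.comap (QuotientGroup.mk' N) := by
    intro x hx
    show QuotientGroup.mk' N x ∈ Qb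
    have h1 : QuotientGroup.mk' N x = 1 := (QuotientGroup.eq_one_iff x).mpr hx
    rw [h1]; exact Qb.one_mem
  have hLcard : Nat.card (Qb.comap (QuotientGroup.mk' N)) = m * p ^ k := by
    rw [Cfsg.Agent.Helper1.card_comap_mk, hk, hQbcard, mul_comm]
  have hHcard : Nat.card (Hb.comap (QuotientGroup.mk' N)) = m * p ^ (k + a) := by
    rw [Cfsg.Agent.Helper1.card_comap_mk, hk, hsplit, pow_add]; ring
  have hHL : Hb.comap (QuotientGroup.mk' N)
      ≤ Subgroup.normalizer ((Qb.comap (QuotientGroup.mk' N) : Subgroup G) : Set G) := by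
    rw [← Subgroup.comap_normalizer_eq_of_surjective _ (QuotientGroup.mk'_surjective N)]
    exact Subgroup.comap_mono hQbN
  obtain ⟨Q', hQ'⟩ := Cfsg.Agent.S0003.result (G := ↥(Qb.comap (QuotientGroup.mk' N))) m (p ^ k)
    hLcard (Nat.Coprime.pow_right _ hcopm)
  obtain ⟨Q, hQdef⟩ : ∃ Q : Subgroup G, Q = Q'.map (Qb.comap (QuotientGroup.mk' N)).subtype :=
    ⟨_, rfl⟩
  have hQL : Q ≤ Qb.comap (QuotientGroup.mk' N) := by
    rw [hQdef]; exact Subgroup.map_subtype_le _
  have hQcard : Nat.card Q = m := by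
    rw [hQdef, Subgroup.card_map_of_injective (Subgroup.subtype_injective _), hQ']
  have hNQ : N ⊓ Q = ⊥ := by
    apply disjoint_iff.mp
    apply Subgroup.disjoint_of_coprime_natCard
    rw [hk, hQcard]
    exact (Nat.Coprime.pow_right _ hcopm).symm
  have hLNQ : Qb.comap (QuotientGroup.mk' N) = N ⊔ Q := by
    symm
    apply Subgroup.eq_of_le_of_card_ge (sup_le hNL hQL)
    have := card_mul_card_eq_of_le_normalizer Q N
      (by rw [Subgroup.normalizer_eq_top]; exact le_top)
    rw [inf_comm, hNQ, Subgroup.card_bot, mul_one, hQcard, hk] at this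
    rw [hLcard, sup_comm, ← this]
  obtain ⟨C, hCdef⟩ : ∃ C : Subgroup G,
      C = Hb.comap (QuotientGroup.mk' N) ⊓ Subgroup.normalizer (Q : Set G) := ⟨_, rfl⟩
  have hCH : C ≤ Hb.comap (QuotientGroup.mk' N) := by rw [hCdef]; exact inf_le_left
  have hCNQ : C ≤ Subgroup.normalizer (Q : Set G) := by rw [hCdef]; exact inf_le_right
  have hQC : Q ≤ C := by
    rw [hCdef]
    exact le_inf (hQL.trans hLH) Subgroup.le_normalizer
  have hfrat : ∀ h ∈ Hb.comap (QuotientGroup.mk' N), ∃ n' ∈ N, ∃ c ∈ C, h = n' * c := by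
    intro h hh
    have h1 : MulAut.conj h • Q ≤ Qb.comap (QuotientGroup.mk' N) := by
      have : MulAut.conj h • Q ≤ MulAut.conj h • Qb.comap (QuotientGroup.mk' N) :=
        Subgroup.pointwise_smul_le_pointwise_smul_iff.mpr hQL
      rwa [smul_eq_of_mem_normalizer (hHL hh)] at this
    obtain ⟨l, hl⟩ := Cfsg.Agent.S0004.result (G := ↥(Qb.comap (QuotientGroup.mk' N))) m (p ^ k)
      hLcard (Nat.Coprime.pow_right _ hcopm) (Q.subgroupOf (Qb.comap (QuotientGroup.mk' N)))
      ((MulAut.conj h • Q).subgroupOf (Qb.comap (QuotientGroup.mk' N)))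
      (by rw [Nat.card_congr (Subgroup.subgroupOfEquivOfLe hQL).toEquiv, hQcard])
      (by rw [Nat.card_congr (Subgroup.subgroupOfEquivOfLe h1).toEquiv, card_conj_smul, hQcard])
    have hl' : MulAut.conj (l : G) • Q = MulAut.conj h • Q := by
      have := congrArg (Subgroup.map (Qb.comap (QuotientGroup.mk' N)).subtype) hl
      rwa [map_conj_smul, Subgroup.subgroupOf_map_subtype, Subgroup.subgroupOf_map_subtype,
        inf_of_le_left hQL, inf_of_le_left h1] at this
    have hc : (l : G)⁻¹ * h ∈ C := by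
      rw [hCdef]
      refine Subgroup.mem_inf.mpr ⟨Subgroup.mul_mem _ (Subgroup.inv_mem _ (hLH l.2)) hh, ?_⟩
      apply Cfsg.Agent.S0540.mem_normalizer_of_smul_le
      rw [map_mul, mul_smul, ← hl', smul_smul, ← map_mul, inv_mul_cancel, map_one, one_smul]
    have hlNQ : (l : G) ∈ ((N ⊔ Q : Subgroup G) : Set G) := by rw [← hLNQ]; exact l.2
    rw [Subgroup.normal_mul] at hlNQ
    obtain ⟨n', hn', q, hq, hnq⟩ := Set.mem_mul.mp hlNQ
    refine ⟨n', hn', q * ((l : G)⁻¹ * h), C.mul_mem (hQC hq) hc, ?_⟩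
    rw [← mul_assoc, hnq, mul_inv_cancel_left]
  haveI hQn : (Q.subgroupOf C).Normal := Subgroup.normal_subgroupOf_of_le_normalizer hCNQ
  have hrelH : Q.relIndex (Hb.comap (QuotientGroup.mk' N)) = p ^ (k + a) := by
    have := Subgroup.card_mul_index (Q.subgroupOf (Hb.comap (QuotientGroup.mk' N)))
    rw [Nat.card_congr (Subgroup.subgroupOfEquivOfLe (hQL.trans hLH)).toEquiv, hQcard, hHcard]
      at this
    have hmpos : 0 < m := by rw [← hQcard]; exact Nat.card_pos
    exact Nat.eq_of_mul_eq_mul_left hmpos this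
  obtain ⟨j, hj⟩ : ∃ j, Q.relIndex C = p ^ j := by
    have h1 : Q.relIndex C ∣ p ^ (k + a) := by
      rw [← hrelH, ← Subgroup.relIndex_mul_relIndex Q C _ hQC hCH]
      exact Dvd.intro _ rfl
    obtain ⟨j, -, hj⟩ := (Nat.dvd_prime_pow hp).1 h1
    exact ⟨j, hj⟩
  have hquot : IsPGroup p (↥C ⧸ Q.subgroupOf C) := IsPGroup.of_card (n := j) hj
  haveI : Group.IsNilpotent (↥C ⧸ Q.subgroupOf C) := hquot.isNilpotent
  haveI : Group.IsNilpotent Hb := hHb.1
  have hCHb : ∀ c : ↥C, ((QuotientGroup.mk' N).comp C.subtype) c ∈ Hb := fun c => hCH c.2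
  have hker : ((((QuotientGroup.mk' N).comp C.subtype).codRestrict Hb hCHb).prod
      (QuotientGroup.mk' (Q.subgroupOf C))).ker = ⊥ := by
    rw [eq_bot_iff]
    intro c hc
    rw [MonoidHom.mem_ker] at hc
    have h1 : (((QuotientGroup.mk' N).comp C.subtype).codRestrict Hb hCHb) c = 1 :=
      congrArg Prod.fst hc
    have h2 : QuotientGroup.mk' (Q.subgroupOf C) c = 1 := congrArg Prod.snd hc
    have hcN : (c : G) ∈ N := by
      have : QuotientGroup.mk' N (c : G) = 1 := congrArg Subtype.val h1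
      exact (QuotientGroup.eq_one_iff _).mp this
    have hcQ : (c : G) ∈ Q := Subgroup.mem_subgroupOf.mp ((QuotientGroup.eq_one_iff c).mp h2)
    have : (c : G) ∈ N ⊓ Q := Subgroup.mem_inf.mpr ⟨hcN, hcQ⟩
    rw [hNQ, Subgroup.mem_bot] at this
    rw [Subgroup.mem_bot]; exact Subtype.ext this
  have hCnil : Group.IsNilpotent C :=
    Subgroup.isNilpotent_of_ker_le_center _ (by rw [hker]; exact bot_le)
  have hmapC : C.map (QuotientGroup.mk' N) = Hb := by
    apply le_antisymm
    · rw [Subgroup.map_le_iff_le_comap]; exact hCH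
    · intro y hy
      obtain ⟨h, rfl⟩ := QuotientGroup.mk'_surjective N y
      obtain ⟨n', hn', c, hc, rfl⟩ := hfrat h hy
      refine ⟨c, hc, ?_⟩
      rw [map_mul]
      have h1 : QuotientGroup.mk' N n' = 1 := (QuotientGroup.eq_one_iff n').mpr hn'
      rw [h1, one_mul]
  refine ⟨C, hCnil, le_antisymm ?_ Subgroup.le_normalizer⟩
  intro x hx
  have hxH : x ∈ Hb.comap (QuotientGroup.mk' N) := by
    show QuotientGroup.mk' N x ∈ Hb
    have h1 : QuotientGroup.mk' N x ∈ Subgroup.normalizer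
        ((C.map (QuotientGroup.mk' N) : Subgroup (G ⧸ N)) : Set (G ⧸ N)) :=
      Subgroup.le_normalizer_map (QuotientGroup.mk' N) (Subgroup.mem_map_of_mem _ hx)
    rw [hmapC, hHb.2] at h1
    exact h1
  have hxQ : x ∈ Subgroup.normalizer (Q : Set G) := by
    apply Cfsg.Agent.S0540.mem_normalizer_of_smul_le
    apply le_of_coprime_relIndex Q _ C
    · have : MulAut.conj x • Q ≤ MulAut.conj x • C :=
        Subgroup.pointwise_smul_le_pointwise_smul_iff.mpr hQC
      rwa [smul_eq_of_mem_normalizer hx] at this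
    · exact hCNQ
    · rw [card_conj_smul, hQcard, hj]
      exact Nat.Coprime.pow_right _ hcopm
  rw [hCdef]
  exact Subgroup.mem_inf.mpr ⟨hxH, hxQ⟩

/-- a finite solvable group has a Carter subgroup -/
theorem carter_exists (G : Type u) [Group G] [Finite G] [Group.IsSolvable G] :
    ∃ C : Subgroup G, Cfsg.IsCarterSubgroup C :=
  carter_exists_aux _ G rfl

end Cfsg.Agent.Helper3
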