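import Mathlib
set_option autoImplicit false

namespace Cfsg.Agent.Helper3

universe u

open Polynomial in
/-- An endomorphism `F` of a nontrivial finite `ZMod p`-module with `F ^ (p - 1) = 1` has an
eigenvector. -/
theorem exists_eigenvector_of_pow_eq_one (p : ℕ) [hp : Fact p.Prime] (V : Type u) [AddCommGroup V]
    [Module (ZMod p) V] [Finite V] [Nontrivial V] (F : Module.End (ZMod p) V)
    (hF : F ^ (p - 1) = 1) : ∃ (μ : ZMod p) (v : V), v ≠ 0 ∧ F v = μ • v := by
  have hp1 : 1 < p := hp.out.one_lt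
  have hq : aeval F (X ^ (p - 1) - 1 : (ZMod p)[X]) = 0 := by
    simp [hF]
  have hdvd : minpoly (ZMod p) F ∣ (X ^ (p - 1) - 1 : (ZMod p)[X]) := minpoly.dvd (ZMod p) F hq
  have hdvd2 : (X ^ (p - 1) - 1 : (ZMod p)[X]) ∣ (X ^ p - X : (ZMod p)[X]) := by
    refine ⟨X, ?_⟩
    have h1 : (X : (ZMod p)[X]) ^ p = X ^ (p - 1) * X := by
      rw [← pow_succ]; congr 1; omega
    rw [h1]; ring
  have hsplit : Splits (X ^ p - X : (ZMod p)[X]) := by
    have h := FiniteField.splits_X_pow_card_sub_X (p := p) (K := ZMod p)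
    simpa using h
  have hne : (X ^ p - X : (ZMod p)[X]) ≠ 0 := FiniteField.X_pow_card_sub_X_ne_zero (ZMod p) hp1
  have hs : Splits (minpoly (ZMod p) F) := hsplit.of_dvd hne (hdvd.trans hdvd2)
  have hint : IsIntegral (ZMod p) F := Algebra.IsIntegral.isIntegral F
  have hdeg : (minpoly (ZMod p) F).degree ≠ 0 := (minpoly.degree_pos hint).ne'
  obtain ⟨μ, hμ⟩ := hs.exists_eval_eq_zero hdeg
  have hev : F.HasEigenvalue μ := Module.End.hasEigenvalue_of_isRoot hμ
  obtain ⟨v, hv⟩ := hev.exists_hasEigenvector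
  exact ⟨μ, v, hv.2, hv.apply_eq_smul⟩

/-- Additive version without reference to the module structure. -/
theorem exists_eigenvector_add (p : ℕ) [hp : Fact p.Prime] (V : Type u) [AddCommGroup V]
    [Finite V] [Nontrivial V] (hV : ∀ x : V, p • x = 0) (f : V →+ V)
    (hf : ∀ v : V, f^[p - 1] v = v) : ∃ (k : ℕ) (v : V), v ≠ 0 ∧ f v = k • v := by
  haveI inst : Module (ZMod p) V := AddCommGroup.zmodModule hV
  have hF : (AddMonoidHom.toZModLinearMap p f : Module.End (ZMod p) V) ^ (p - 1) = 1 := by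
    apply LinearMap.ext
    intro v
    rw [Module.End.pow_apply]
    exact hf v
  obtain ⟨μ, v, hv0, hv⟩ := exists_eigenvector_of_pow_eq_one p V (AddMonoidHom.toZModLinearMap p f) hF
  refine ⟨μ.val, v, hv0, ?_⟩
  have h1 : μ • v = μ.val • v := by
    conv_lhs => rw [← ZMod.natCast_zmod_val μ]
    exact Nat.cast_smul_eq_nsmul (ZMod p) _ _
  rw [← h1]
  exact hv

/-- Multiplicative version. -/
theorem exists_eigenvector_mul (p : ℕ) [hp : Fact p.Prime] (A : Type u) [CommGroup A]
    [Finite A] [Nontrivial A] (hA : ∀ x : A, x ^ p = 1) (f : A →* A)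
    (hf : ∀ v : A, f^[p - 1] v = v) : ∃ (k : ℕ) (v : A), v ≠ 1 ∧ f v = v ^ k := by
  have hV : ∀ x : Additive A, p • x = 0 := fun x => congrArg Additive.ofMul (hA (Additive.toMul x))
  have hf' : ∀ v : Additive A, (MonoidHom.toAdditive f)^[p - 1] v = v := by
    intro v
    have key : ∀ n : ℕ, ∀ w : Additive A,
        (MonoidHom.toAdditive f)^[n] w = Additive.ofMul (f^[n] (Additive.toMul w)) := by
      intro n
      induction n with
      | zero => intro w; rfl
      | succ n ih =>
        intro w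
        rw [Function.iterate_succ_apply', Function.iterate_succ_apply', ih]
        rfl
    rw [key, hf]
    rfl
  obtain ⟨k, v, hv0, hv⟩ := exists_eigenvector_add p (Additive A) hV (MonoidHom.toAdditive f) hf'
  refine ⟨k, Additive.toMul v, ?_, ?_⟩
  · intro h
    exact hv0 (congrArg Additive.ofMul h)
  · exact congrArg Additive.toMul hv

open scoped IsMulCommutative in
/-- Eigenvector for conjugation on an elementary abelian normal `p`-subgroup when `g ^ (p - 1)`
centralizes it. -/
theorem exists_eigen_conj {G : Type u} [Group G] (p : ℕ) [hp : Fact p.Prime] (N : Subgroup G)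
    [N.Normal] [Finite N] [IsMulCommutative N] (hexp : ∀ x ∈ N, x ^ p = 1) (hN : N ≠ ⊥)
    (g : G) (hg : ∀ x ∈ N, g ^ (p - 1) * x * (g ^ (p - 1))⁻¹ = x) :
    ∃ v ∈ N, v ≠ 1 ∧ ∃ k : ℕ, g * v * g⁻¹ = v ^ k := by
  haveI : Nontrivial N := (Subgroup.nontrivial_iff_ne_bot N).mpr hN
  have hA : ∀ x : N, x ^ p = 1 := fun x => Subtype.ext (by simpa using hexp _ x.2)
  have key : ∀ n : ℕ, ∀ w : N,
      (((MulAut.conjNormal g : N ≃* N).toMonoidHom)^[n] w : G) = g ^ n * w * (g ^ n)⁻¹ := by
    intro n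
    induction n with
    | zero => intro w; simp
    | succ n ih =>
      intro w
      rw [Function.iterate_succ_apply', pow_succ']
      have : (((MulAut.conjNormal g : N ≃* N).toMonoidHom
          (((MulAut.conjNormal g : N ≃* N).toMonoidHom)^[n] w) : N) : G)
          = g * ((((MulAut.conjNormal g : N ≃* N).toMonoidHom)^[n] w : N) : G) * g⁻¹ := rfl
      rw [this, ih]
      group
  have hf : ∀ v : N, ((MulAut.conjNormal g : N ≃* N).toMonoidHom)^[p - 1] v = v := by
    intro v
    apply Subtype.ext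
    rw [key]
    exact hg _ v.2
  obtain ⟨k, v, hv0, hv⟩ := exists_eigenvector_mul p N hA (MulAut.conjNormal g : N ≃* N).toMonoidHom hf
  refine ⟨(v : G), v.2, fun h => hv0 (Subtype.ext h), k, ?_⟩
  have := congrArg (Subtype.val) hv
  simpa using this

end Cfsg.Agent.Helper3
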