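import Mathlib

/-!
Helper library (helper3): elementary facts on `2 × 2` matrices over a field used for
odd-order subgroups of `GL(2, F)`.
-/

set_option autoImplicit false

namespace Cfsg.Agent.Helper3.GL2Odd

variable {F : Type*} [Field F]

/-- a non-scalar `2 × 2` matrix -/
def NonScalar (w : Matrix (Fin 2) (Fin 2) F) : Prop :=
  ∀ c : F, w ≠ c • (1 : Matrix (Fin 2) (Fin 2) F)

theorem mul_entries (a w : Matrix (Fin 2) (Fin 2) F) (i j : Fin 2) :
    (a * w) i j = a i 0 * w 0 j + a i 1 * w 1 j := by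
  rw [Matrix.mul_apply, Fin.sum_univ_two]

theorem ext2 {a b : Matrix (Fin 2) (Fin 2) F} (h00 : a 0 0 = b 0 0) (h01 : a 0 1 = b 0 1)
    (h10 : a 1 0 = b 1 0) (h11 : a 1 1 = b 1 1) : a = b := by
  ext i j
  fin_cases i <;> fin_cases j
  · exact h00
  · exact h01
  · exact h10
  · exact h11

theorem lin_entries (α β : F) (w : Matrix (Fin 2) (Fin 2) F) :
    (α • (1 : Matrix (Fin 2) (Fin 2) F) + β • w) 0 0 = α + β * w 0 0 ∧
    (α • (1 : Matrix (Fin 2) (Fin 2) F) + β • w) 0 1 = β * w 0 1 ∧
    (α • (1 : Matrix (Fin 2) (Fin 2) F) + β • w) 1 0 = β * w 1 0 ∧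
    (α • (1 : Matrix (Fin 2) (Fin 2) F) + β • w) 1 1 = α + β * w 1 1 := by
  refine ⟨?_, ?_, ?_, ?_⟩ <;> simp [Matrix.add_apply, Matrix.smul_apply, Matrix.one_apply]

theorem nonScalar_cases {w : Matrix (Fin 2) (Fin 2) F} (hw : NonScalar w) :
    w 0 1 ≠ 0 ∨ w 1 0 ≠ 0 ∨ w 0 0 ≠ w 1 1 := by
  by_contra hcon
  push Not at hcon
  obtain ⟨h01, h10, h00⟩ := hcon
  apply hw (w 0 0)
  have hl := lin_entries (w 0 0) 0 w
  have e : (w 0 0) • (1 : Matrix (Fin 2) (Fin 2) F) =
      (w 0 0) • (1 : Matrix (Fin 2) (Fin 2) F) + (0 : F) • w := by simp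
  rw [e]
  apply ext2
  · rw [hl.1]; ring
  · rw [hl.2.1, h01]; ring
  · rw [hl.2.2.1, h10]; ring
  · rw [hl.2.2.2, ← h00]; ring

/-- the centralizer of a non-scalar matrix `w` is `F[w]` -/
theorem exists_eq_of_commute {w a : Matrix (Fin 2) (Fin 2) F} (hw : NonScalar w)
    (ha : a * w = w * a) :
    ∃ α β : F, a = α • (1 : Matrix (Fin 2) (Fin 2) F) + β • w := by
  have e00 : a 0 0 * w 0 0 + a 0 1 * w 1 0 = w 0 0 * a 0 0 + w 0 1 * a 1 0 := by
    have := congrFun (congrFun ha 0) 0
    rwa [mul_entries, mul_entries] at this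
  have e01 : a 0 0 * w 0 1 + a 0 1 * w 1 1 = w 0 0 * a 0 1 + w 0 1 * a 1 1 := by
    have := congrFun (congrFun ha 0) 1
    rwa [mul_entries, mul_entries] at this
  have e10 : a 1 0 * w 0 0 + a 1 1 * w 1 0 = w 1 0 * a 0 0 + w 1 1 * a 1 0 := by
    have := congrFun (congrFun ha 1) 0
    rwa [mul_entries, mul_entries] at this
  by_cases h01 : w 0 1 = 0
  · by_cases h10 : w 1 0 = 0
    · have hne : w 0 0 ≠ w 1 1 := by
        rcases nonScalar_cases hw with h | h | h
        · exact absurd h01 h
        · exact absurd h10 h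
        · exact h
      have hne' : w 0 0 - w 1 1 ≠ 0 := sub_ne_zero.2 hne
      have a01 : a 0 1 = 0 := by
        have : a 0 1 * (w 0 0 - w 1 1) = 0 := by
          rw [h01] at e01; linear_combination -e01
        rcases mul_eq_zero.1 this with h | h
        · exact h
        · exact absurd h hne'
      have a10 : a 1 0 = 0 := by
        have : a 1 0 * (w 0 0 - w 1 1) = 0 := by
          rw [h10] at e10; linear_combination e10
        rcases mul_eq_zero.1 this with h | h
        · exact h
        · exact absurd h hne'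
      refine ⟨a 0 0 - (a 0 0 - a 1 1) / (w 0 0 - w 1 1) * w 0 0,
        (a 0 0 - a 1 1) / (w 0 0 - w 1 1), ?_⟩
      have hl := lin_entries (a 0 0 - (a 0 0 - a 1 1) / (w 0 0 - w 1 1) * w 0 0)
        ((a 0 0 - a 1 1) / (w 0 0 - w 1 1)) w
      apply ext2
      · rw [hl.1]; ring
      · rw [hl.2.1, h01, a01]; ring
      · rw [hl.2.2.1, h10, a10]; ring
      · rw [hl.2.2.2]; field_simp; ring
    · refine ⟨a 0 0 - a 1 0 / w 1 0 * w 0 0, a 1 0 / w 1 0, ?_⟩
      have hl := lin_entries (a 0 0 - a 1 0 / w 1 0 * w 0 0) (a 1 0 / w 1 0) w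
      apply ext2
      · rw [hl.1]; ring
      · rw [hl.2.1]; field_simp; linear_combination e00
      · rw [hl.2.2.1]; field_simp
      · rw [hl.2.2.2]; field_simp; linear_combination e10
  · refine ⟨a 0 0 - a 0 1 / w 0 1 * w 0 0, a 0 1 / w 0 1, ?_⟩
    have hl := lin_entries (a 0 0 - a 0 1 / w 0 1 * w 0 0) (a 0 1 / w 0 1) w
    apply ext2
    · rw [hl.1]; ring
    · rw [hl.2.1]; field_simp
    · rw [hl.2.2.1]; field_simp; linear_combination -e00
    · rw [hl.2.2.2]; field_simp; linear_combination -e01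

theorem commute_lin (w : Matrix (Fin 2) (Fin 2) F) (α β α' β' : F) :
    Commute (α • (1 : Matrix (Fin 2) (Fin 2) F) + β • w)
      (α' • (1 : Matrix (Fin 2) (Fin 2) F) + β' • w) := by
  have h : Commute w (α' • (1 : Matrix (Fin 2) (Fin 2) F) + β' • w) :=
    Commute.add_right (Commute.smul_right (Commute.one_right w) α')
      (Commute.smul_right (Commute.refl w) β')
  exact Commute.add_left (Commute.smul_left (Commute.one_left _) α) (Commute.smul_left h β)

/-- two matrices commuting with a non-scalar matrix commute -/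
theorem commute_of_commute {w a b : Matrix (Fin 2) (Fin 2) F} (hw : NonScalar w)
    (ha : a * w = w * a) (hb : b * w = w * b) : a * b = b * a := by
  obtain ⟨α, β, rfl⟩ := exists_eq_of_commute hw ha
  obtain ⟨α', β', rfl⟩ := exists_eq_of_commute hw hb
  exact (commute_lin w α β α' β').eq

theorem trace2 (c : Matrix (Fin 2) (Fin 2) F) : c.trace = c 0 0 + c 1 1 :=
  Matrix.trace_fin_two c

/-- a non-scalar matrix with vanishing discriminant has no finite order prime to the
characteristic -/
theorem pow_ne_one_of_disc_zero (h2 : (2 : F) ≠ 0) {c : Matrix (Fin 2) (Fin 2) F}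
    (hc : NonScalar c)
    (hdisc : (c 0 0 + c 1 1) ^ 2 = 4 * (c 0 0 * c 1 1 - c 0 1 * c 1 0))
    (m : ℕ) (hm : (m : F) ≠ 0) : c ^ m ≠ 1 := by
  obtain ⟨lam, hlam⟩ : ∃ lam : F, lam = (c 0 0 + c 1 1) / 2 := ⟨_, rfl⟩
  obtain ⟨N, hN⟩ : ∃ N : Matrix (Fin 2) (Fin 2) F,
      N = c - lam • (1 : Matrix (Fin 2) (Fin 2) F) := ⟨_, rfl⟩
  have hN00 : N 0 0 = (c 0 0 - c 1 1) / 2 := by
    rw [hN, hlam]; simp [Matrix.sub_apply, Matrix.smul_apply]; field_simp; ring
  have hN01 : N 0 1 = c 0 1 := by
    rw [hN]; simp [Matrix.sub_apply, Matrix.smul_apply]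
  have hN10 : N 1 0 = c 1 0 := by
    rw [hN]; simp [Matrix.sub_apply, Matrix.smul_apply]
  have hN11 : N 1 1 = (c 1 1 - c 0 0) / 2 := by
    rw [hN, hlam]; simp [Matrix.sub_apply, Matrix.smul_apply]; field_simp; ring
  have h4 : (4 : F) ≠ 0 := by
    have : (4 : F) = 2 * 2 := by norm_num
    rw [this]; exact mul_ne_zero h2 h2
  have hNN : N * N = 0 := by
    apply ext2
    · rw [mul_entries, hN00, hN01, hN10]
      simp only [Matrix.zero_apply]
      field_simp
      linear_combination hdisc
    · rw [mul_entries, hN00, hN01, hN11]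
      simp only [Matrix.zero_apply]
      field_simp
      ring
    · rw [mul_entries, hN00, hN10, hN11]
      simp only [Matrix.zero_apply]
      field_simp
      ring
    · rw [mul_entries, hN11, hN01, hN10]
      simp only [Matrix.zero_apply]
      field_simp
      linear_combination hdisc
  have hcN : c = lam • (1 : Matrix (Fin 2) (Fin 2) F) + N := by rw [hN]; abel
  have hN0 : N ≠ 0 := by
    intro h0
    apply hc lam
    rw [hcN, h0, add_zero]
  have hpow : ∀ k : ℕ, c ^ (k + 1) =
      (lam ^ (k + 1)) • (1 : Matrix (Fin 2) (Fin 2) F) + (((k + 1 : ℕ) : F) * lam ^ k) • N := by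
    intro k
    induction k with
    | zero => simp [hcN]
    | succ k ih =>
      rw [pow_succ, ih]
      have e : (lam ^ (k + 1) • (1 : Matrix (Fin 2) (Fin 2) F) +
          (((k + 1 : ℕ) : F) * lam ^ k) • N) * c =
          (lam ^ (k + 1) • (1 : Matrix (Fin 2) (Fin 2) F) +
          (((k + 1 : ℕ) : F) * lam ^ k) • N) * (lam • (1 : Matrix (Fin 2) (Fin 2) F) + N) := by
        rw [← hcN]
      rw [e]
      simp only [add_mul, mul_add, smul_mul_assoc, mul_smul_comm, one_mul, mul_one, hNN,
        smul_zero, add_zero, smul_smul]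
      push_cast
      module
  intro hcm
  cases m with
  | zero => exact hm (by simp)
  | succ k =>
    rw [hpow k] at hcm
    have h1 : (lam ^ (k + 1) - 1) • N = 0 := by
      have := congrArg (fun X => X * N) hcm
      simp only [add_mul, smul_mul_assoc, one_mul, hNN, smul_zero, add_zero] at this
      rw [sub_smul, one_smul, this, sub_self]
    have h2' : lam ^ (k + 1) = 1 := by
      rcases smul_eq_zero.1 h1 with h | h
      · exact sub_eq_zero.1 h
      · exact absurd h hN0
    rw [h2'] at hcm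
    have h3 : (((k + 1 : ℕ) : F) * lam ^ k) • N = 0 := by
      have : (1 : F) • (1 : Matrix (Fin 2) (Fin 2) F) + (((k + 1 : ℕ) : F) * lam ^ k) • N
          = (1 : F) • (1 : Matrix (Fin 2) (Fin 2) F) + 0 := by
        rw [hcm, one_smul, add_zero]
      exact add_left_cancel this
    rcases smul_eq_zero.1 h3 with h | h
    · rcases mul_eq_zero.1 h with h' | h'
      · exact hm h'
      · rw [pow_succ, h', zero_mul] at h2'
        exact zero_ne_one h2'
    · exact hN0 h

/-- key lemma: if `n` has odd order, `c` is non-scalar of order prime to the characteristic,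
and the conjugate `n c n⁻¹` commutes with `c`, then `n` commutes with `c`. -/
theorem commute_of_conj_commute (h2 : (2 : F) ≠ 0) {c n n' : Matrix (Fin 2) (Fin 2) F}
    (hc : NonScalar c) (m : ℕ) (hm : (m : F) ≠ 0) (hcm : c ^ m = 1)
    (hnn' : n * n' = 1) (hn'n : n' * n = 1) (k : ℕ) (hk : Odd k) (hnk : n ^ k = 1)
    (hd : (n * c * n') * c = c * (n * c * n')) : n * c = c * n := by
  obtain ⟨α, β, hαβ⟩ := exists_eq_of_commute hc hd
  have hl := lin_entries α β c
  have htr : (n * c * n').trace = c.trace := by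
    rw [Matrix.trace_mul_comm, ← mul_assoc, hn'n, one_mul]
  have hdet : (n * c * n').det = c.det := by
    rw [Matrix.det_mul, Matrix.det_mul]
    have h1 : n.det * n'.det = 1 := by rw [← Matrix.det_mul, hnn', Matrix.det_one]
    calc n.det * c.det * n'.det = (n.det * n'.det) * c.det := by ring
      _ = c.det := by rw [h1, one_mul]
  obtain ⟨τ, hτ⟩ : ∃ τ : F, τ = c 0 0 + c 1 1 := ⟨_, rfl⟩
  obtain ⟨δ, hδ⟩ : ∃ δ : F, δ = c 0 0 * c 1 1 - c 0 1 * c 1 0 := ⟨_, rfl⟩
  have e1 : 2 * α + β * τ = τ := by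
    rw [hαβ, trace2, trace2, hl.1, hl.2.2.2] at htr
    rw [hτ]; linear_combination htr
  have e2 : α ^ 2 + α * β * τ + β ^ 2 * δ = δ := by
    rw [hαβ, Matrix.det_fin_two, Matrix.det_fin_two, hl.1, hl.2.1, hl.2.2.1, hl.2.2.2] at hdet
    rw [hτ, hδ]; linear_combination hdet
  have key : (1 - β) * ((1 + β) * (τ ^ 2 - 4 * δ)) = 0 := by
    linear_combination 4 * e2 - (2 * α + β * τ + τ) * e1
  rcases mul_eq_zero.1 key with h | h
  · -- β = 1
    have hβ : β = 1 := by linear_combination -h
    have hα : α = 0 := by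
      have : 2 * α = 0 := by rw [hβ] at e1; linear_combination e1
      rcases mul_eq_zero.1 this with h' | h'
      · exact absurd h' h2
      · exact h'
    rw [hα, hβ, zero_smul, zero_add, one_smul] at hαβ
    calc n * c = n * c * (n' * n) := by rw [hn'n, mul_one]
      _ = (n * c * n') * n := by simp only [mul_assoc]
      _ = c * n := by rw [hαβ]
  · rcases mul_eq_zero.1 h with h | h
    · -- β = -1
      have hβ : β = -1 := by linear_combination h
      have hα : α = τ := by
        have : 2 * (α - τ) = 0 := by rw [hβ] at e1; linear_combination e1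
        rcases mul_eq_zero.1 this with h' | h'
        · exact absurd h' h2
        · exact sub_eq_zero.1 h'
      rw [hα, hβ] at hαβ
      have hd2 : n * (n * c * n') * n' = c := by
        rw [hαβ, mul_add, add_mul, mul_smul_comm, smul_mul_assoc, mul_one, hnn', mul_smul_comm,
          smul_mul_assoc, hαβ]
        simp only [neg_smul, one_smul, neg_add_rev, neg_neg]
        abel
      have hsq : (n * n) * c = c * (n * n) := by
        calc (n * n) * c = n * (n * c * (n' * n')) * (n * n) := by
              have : n' * n' * (n * n) = 1 := by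
                calc n' * n' * (n * n) = n' * (n' * n) * n := by simp only [mul_assoc]
                  _ = 1 := by rw [hn'n, mul_one, hn'n]
              calc (n * n) * c = n * (n * c * (n' * n' * (n * n))) := by
                    rw [this, mul_one]; simp only [mul_assoc]
                _ = n * (n * c * (n' * n')) * (n * n) := by simp only [mul_assoc]
          _ = (n * (n * c * n') * n') * (n * n) := by simp only [mul_assoc]
          _ = c * (n * n) := by rw [hd2]
      obtain ⟨j, hj⟩ := hk
      have hcomm : Commute (n * n) c := hsq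
      have hn : n = (n * n) ^ (j + 1) := by
        rw [← pow_two, ← pow_mul]
        have : 2 * (j + 1) = k + 1 := by omega
        rw [this, pow_succ, hnk, one_mul]
      have := (hcomm.pow_left (j + 1)).eq
      rw [← hn] at this
      exact this
    · exfalso
      have hdisc : (c 0 0 + c 1 1) ^ 2 = 4 * (c 0 0 * c 1 1 - c 0 1 * c 1 0) := by
        rw [← hτ, ← hδ]; linear_combination h
      exact pow_ne_one_of_disc_zero h2 hc hdisc m hm hcm

section unipotent

variable (p : ℕ) [Fact p.Prime] [CharP F p]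

theorem sub_one_pow_eq_zero {w : Matrix (Fin 2) (Fin 2) F} {k : ℕ} (hw : w ^ p ^ k = 1) :
    (w - 1) ^ p ^ k = 0 := by
  rw [sub_pow_char_pow_of_commute p k (Commute.one_right w), hw, one_pow, sub_self]

theorem nonScalar_of_unipotent {w : Matrix (Fin 2) (Fin 2) F} {k : ℕ} (hw : w ^ p ^ k = 1)
    (hw1 : w ≠ 1) : NonScalar w := by
  intro c hc
  have h0 := sub_one_pow_eq_zero p hw
  have e : w - 1 = (c - 1) • (1 : Matrix (Fin 2) (Fin 2) F) := by
    rw [hc, sub_smul, one_smul]
  rw [e, smul_pow, one_pow] at h0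
  have h1 : (c - 1) ^ p ^ k = 0 := by
    have := congrFun (congrFun h0 0) 0
    simpa using this
  have h2 : c = 1 := sub_eq_zero.1 (pow_eq_zero_iff (pow_ne_zero k (Fact.out : p.Prime).ne_zero) |>.1 h1)
  apply hw1
  rw [hc, h2, one_smul]

theorem exists_fixed {w : Matrix (Fin 2) (Fin 2) F} {k : ℕ} (hw : w ^ p ^ k = 1) :
    ∃ v : Fin 2 → F, v ≠ 0 ∧ w.mulVec v = v := by
  have h0 := sub_one_pow_eq_zero p hw
  have hdet : (w - 1).det = 0 := by
    have := congrArg Matrix.det h0
    rw [Matrix.det_pow, Matrix.det_zero] at this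
    exact pow_eq_zero_iff (pow_ne_zero k (Fact.out : p.Prime).ne_zero) |>.1 this
  obtain ⟨v, hv, hv0⟩ := Matrix.exists_mulVec_eq_zero_iff.2 hdet
  refine ⟨v, hv, ?_⟩
  rw [Matrix.sub_mulVec, Matrix.one_mulVec] at hv0
  exact sub_eq_zero.1 hv0

theorem eigen_eq_one {w : Matrix (Fin 2) (Fin 2) F} {k : ℕ} (hw : w ^ p ^ k = 1)
    {u : Fin 2 → F} (hu : u ≠ 0) {t : F} (ht : w.mulVec u = t • u) : t = 1 := by
  have h0 := sub_one_pow_eq_zero p hw
  have h1 : ∀ j : ℕ, ((w - 1) ^ j).mulVec u = (t - 1) ^ j • u := by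
    intro j
    induction j with
    | zero => simp
    | succ j ih =>
      have e : t • u - u = (t - 1) • u := by rw [sub_smul, one_smul]
      rw [pow_succ, ← Matrix.mulVec_mulVec, Matrix.sub_mulVec, Matrix.one_mulVec, ht,
        e, Matrix.mulVec_smul, ih, smul_smul, pow_succ, mul_comm]
  have h2 := h1 (p ^ k)
  rw [h0, Matrix.zero_mulVec] at h2
  rcases smul_eq_zero.1 h2.symm with h | h
  · exact sub_eq_zero.1 (pow_eq_zero_iff (pow_ne_zero k (Fact.out : p.Prime).ne_zero) |>.1 h)
  · exact absurd h hu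

end unipotent

/-- the kernel of a nonzero `2 × 2` matrix is at most one-dimensional -/
theorem exists_smul_of_ker {m : Matrix (Fin 2) (Fin 2) F} (hm : m ≠ 0) {v u : Fin 2 → F}
    (hv : v ≠ 0) (hmv : m.mulVec v = 0) (hmu : m.mulVec u = 0) : ∃ a : F, a • v = u := by
  have mv : ∀ i : Fin 2, m i 0 * v 0 + m i 1 * v 1 = 0 := by
    intro i
    have := congrFun hmv i
    rwa [Matrix.mulVec, dotProduct, Fin.sum_univ_two] at this
  have mu : ∀ i : Fin 2, m i 0 * u 0 + m i 1 * u 1 = 0 := by
    intro i
    have := congrFun hmu i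
    rwa [Matrix.mulVec, dotProduct, Fin.sum_univ_two] at this
  have hD : v 0 * u 1 - v 1 * u 0 = 0 := by
    by_contra hD
    apply hm
    have r0 : ∀ i : Fin 2, m i 0 = 0 := by
      intro i
      have : m i 0 * (v 0 * u 1 - v 1 * u 0) = 0 := by
        linear_combination u 1 * mv i - v 1 * mu i
      rcases mul_eq_zero.1 this with h | h
      · exact h
      · exact absurd h hD
    have r1 : ∀ i : Fin 2, m i 1 = 0 := by
      intro i
      have : m i 1 * (v 0 * u 1 - v 1 * u 0) = 0 := by
        linear_combination v 0 * mu i - u 0 * mv i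
      rcases mul_eq_zero.1 this with h | h
      · exact h
      · exact absurd h hD
    apply ext2
    · exact r0 0
    · exact r1 0
    · exact r0 1
    · exact r1 1
  by_cases hv0 : v 0 = 0
  · have hv1 : v 1 ≠ 0 := by
      intro h1
      apply hv
      funext i
      fin_cases i
      · exact hv0
      · exact h1
    refine ⟨u 1 / v 1, ?_⟩
    funext i
    fin_cases i
    · show u 1 / v 1 * v 0 = u 0
      rw [hv0, mul_zero]
      have : v 1 * u 0 = 0 := by rw [hv0] at hD; linear_combination -hD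
      rcases mul_eq_zero.1 this with h | h
      · exact absurd h hv1
      · exact h.symm
    · show u 1 / v 1 * v 1 = u 1
      field_simp
  · refine ⟨u 0 / v 0, ?_⟩
    funext i
    fin_cases i
    · show u 0 / v 0 * v 0 = u 0
      field_simp
    · show u 0 / v 0 * v 1 = u 1
      field_simp
      linear_combination -hD

end Cfsg.Agent.Helper3.GL2Odd
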