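import Mathlib
import Cfsg.Agent.Helper27.SpE1

set_option autoImplicit false

namespace Cfsg.Agent.Helper3.PSpRS1

theorem even_fix {F V : Type*} [Field F] [AddCommGroup V] [Module F V] [FiniteDimensional F V] (f : LinearMap.BilinForm F V) (halt : ∀ v, f v v = 0) (W : Submodule F V) (hW : ∀ w ∈ W, (∀ w' ∈ W, f w w' = 0) → w = 0) (X : Module.End F V) (hX : ∀ u v, f (X u) (X v) = f u v) (hXW : ∀ w ∈ W, X w ∈ W) (s : ℕ) (hs : (s : F) ≠ 0) (hXs : X ^ s = 1) : (∀ w ∈ W ⊓ LinearMap.ker (X - 1), (∀ w' ∈ W ⊓ LinearMap.ker (X - 1), f w w' = 0) → w = 0) ∧ Even (Module.finrank F ↥(W ⊓ LinearMap.ker (X - 1))) := by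
  have hXi : ∀ (i : ℕ) (u v : V), f ((X ^ i) u) ((X ^ i) v) = f u v := by
    intro i
    induction i with
    | zero => intro u v; simp
    | succ i ih =>
      intro u v
      rw [pow_succ', Module.End.mul_apply, Module.End.mul_apply, hX, ih]
  have hWi : ∀ (i : ℕ) (u : V), u ∈ W → (X ^ i) u ∈ W := by
    intro i
    induction i with
    | zero => intro u hu; simpa using hu
    | succ i ih =>
      intro u hu
      rw [pow_succ', Module.End.mul_apply]
      exact hXW _ (ih u hu)
  have hfixi : ∀ (i : ℕ) (w : V), X w = w → (X ^ i) w = w := by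
    intro i w hw
    induction i with
    | zero => simp
    | succ i ih => rw [pow_succ', Module.End.mul_apply, ih, hw]
  have hker : ∀ w : V, w ∈ LinearMap.ker (X - 1) ↔ X w = w := by
    intro w
    rw [LinearMap.mem_ker, LinearMap.sub_apply, Module.End.one_apply, sub_eq_zero]
  have h1 : ∀ w ∈ W ⊓ LinearMap.ker (X - 1),
      (∀ w' ∈ W ⊓ LinearMap.ker (X - 1), f w w' = 0) → w = 0 := by
    intro w hw hperp
    obtain ⟨hwW, hwk⟩ := Submodule.mem_inf.1 hw
    rw [hker] at hwk
    apply hW w hwW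
    intro u hu
    have hubW : (∑ i ∈ Finset.range s, X ^ i) u ∈ W := by
      rw [LinearMap.sum_apply]
      exact Submodule.sum_mem _ (fun i _ => hWi i u hu)
    have hubk : (∑ i ∈ Finset.range s, X ^ i) u ∈ LinearMap.ker (X - 1) := by
      rw [LinearMap.mem_ker, ← Module.End.mul_apply, mul_geom_sum, hXs, sub_self,
        LinearMap.zero_apply]
    have h0 := hperp _ (Submodule.mem_inf.2 ⟨hubW, hubk⟩)
    rw [LinearMap.sum_apply, map_sum] at h0
    have h2 : ∀ i ∈ Finset.range s, f w ((X ^ i) u) = f w u := by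
      intro i _
      conv_lhs => rw [← hfixi i w hwk]
      exact hXi i w u
    rw [Finset.sum_congr rfl h2, Finset.sum_const, Finset.card_range, nsmul_eq_mul] at h0
    rcases mul_eq_zero.1 h0 with h | h
    · exact absurd h hs
    · exact h
  refine ⟨h1, ?_⟩
  apply Cfsg.Agent.Helper27.SpE1.even_finrank f halt
  intro a ha ha0
  by_contra hcon
  exact ha0 (h1 a ha (fun w' hw' => by
    by_contra h
    exact hcon ⟨w', hw', h⟩))

end Cfsg.Agent.Helper3.PSpRS1
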