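import Mathlib

set_option autoImplicit false

namespace Cfsg.Agent.Helper3.Psl3x

theorem exists_gen {F : Type*} [Field F] [Fintype F] :
    ∃ ζ : F, ζ ≠ 0 ∧ ∀ k : ℕ, ζ ^ k = 1 ↔ (Fintype.card F - 1) ∣ k := by
  classical
  obtain ⟨g, hg⟩ := IsCyclic.exists_generator (α := Fˣ)
  have ho : orderOf g = Fintype.card F - 1 := by
    rw [orderOf_eq_card_of_forall_mem_zpowers hg, Nat.card_eq_fintype_card, Fintype.card_units]
  refine ⟨(g : F), g.ne_zero, fun k => ?_⟩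
  rw [← ho, orderOf_dvd_iff_pow_eq_one, ← Units.val_pow_eq_pow_val, Units.val_eq_one]

theorem ex_qm1 {F : Type*} [Field F] [Fintype F] :
    ∃ M : Matrix (Fin 3) (Fin 3) F, M.det = 1 ∧
      (∃ c : F, M ^ (Fintype.card F - 1) = c • (1 : Matrix (Fin 3) (Fin 3) F)) ∧
      ∀ j : ℕ, (∃ c : F, M ^ j = c • (1 : Matrix (Fin 3) (Fin 3) F)) → (Fintype.card F - 1) ∣ j := by
  classical
  obtain ⟨ζ, hζ0, hζ⟩ := exists_gen (F := F)
  refine ⟨Matrix.diagonal ![ζ, ζ⁻¹, 1], ?_, ⟨1, ?_⟩, ?_⟩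
  · rw [Matrix.det_diagonal, Fin.prod_univ_three]
    simp [hζ0]
  · rw [Matrix.diagonal_pow, one_smul, ← Matrix.diagonal_one]
    congr 1
    funext i
    have h1 : ζ ^ (Fintype.card F - 1) = 1 := (hζ _).2 dvd_rfl
    fin_cases i
    · simpa using h1
    · simp [h1]
    · simp
  · rintro j ⟨c, hc⟩
    rw [Matrix.diagonal_pow, Matrix.smul_one_eq_diagonal] at hc
    have h := Matrix.diagonal_injective hc
    have h0 := congrFun h 0
    have h2 := congrFun h 2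
    simp at h0 h2
    rw [← hζ, h0, ← h2]

theorem ex_four {F : Type*} [Field F] [Fintype F] (hch : (2 : F) = 0) :
    ∃ M : Matrix (Fin 3) (Fin 3) F, M.det = 1 ∧
      (∃ c : F, M ^ 4 = c • (1 : Matrix (Fin 3) (Fin 3) F)) ∧
      ∀ j : ℕ, (∃ c : F, M ^ j = c • (1 : Matrix (Fin 3) (Fin 3) F)) → 4 ∣ j := by
  have h11 : (1 : F) + 1 = 0 := by rw [one_add_one_eq_two]; exact hch
  set M : Matrix (Fin 3) (Fin 3) F := !![1,1,0;0,1,1;0,0,1] with hM
  have h2 : M ^ 2 = !![1,0,1;0,1,0;0,0,1] := by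
    rw [pow_two, hM, Matrix.mul_fin_three]; simp [h11]
  have h3 : M ^ 3 = !![1,1,1;0,1,1;0,0,1] := by
    rw [pow_succ, h2, hM, Matrix.mul_fin_three]; simp
  have h4 : M ^ 4 = 1 := by
    have : M ^ 4 = M ^ 2 * M ^ 2 := by rw [← pow_add]
    rw [this, h2, Matrix.mul_fin_three, Matrix.one_fin_three]; simp [h11]
  refine ⟨M, ?_, ⟨1, by rw [h4, one_smul]⟩, ?_⟩
  · rw [hM, Matrix.det_fin_three]; simp
  · rintro j ⟨c, hc⟩
    have hj : M ^ j = M ^ (j % 4) := by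
      conv_lhs => rw [← Nat.div_add_mod j 4, pow_add, pow_mul, h4, one_pow, one_mul]
    rw [hj] at hc
    have hlt : j % 4 < 4 := Nat.mod_lt _ (by norm_num)
    rw [Nat.dvd_iff_mod_eq_zero]
    interval_cases h : j % 4
    · rfl
    · exfalso; rw [pow_one, hM] at hc
      have := congrFun (congrFun hc 0) 1
      simp at this
    · exfalso; rw [h2] at hc
      have := congrFun (congrFun hc 0) 2
      simp at this
    · exfalso; rw [h3] at hc
      have := congrFun (congrFun hc 0) 1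
      simp at this

theorem ex_pq {F : Type*} [Field F] [Fintype F] (p : ℕ) [Fact p.Prime] [CharP F p] :
    ∃ M : Matrix (Fin 3) (Fin 3) F, M.det = 1 ∧
      (∃ c : F, M ^ (p * (Fintype.card F - 1) / Nat.gcd 3 (Fintype.card F - 1)) = c • (1 : Matrix (Fin 3) (Fin 3) F)) ∧
      ∀ j : ℕ, (∃ c : F, M ^ j = c • (1 : Matrix (Fin 3) (Fin 3) F)) →
        (p * (Fintype.card F - 1) / Nat.gcd 3 (Fintype.card F - 1)) ∣ j := by
  classical
  obtain ⟨ζ, hζ0, hζ⟩ := exists_gen (F := F)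
  have hp : p.Prime := Fact.out
  generalize hq1 : Fintype.card F - 1 = q1 at hζ ⊢
  have hd3 : Nat.gcd 3 q1 ∣ 3 := Nat.gcd_dvd_left 3 q1
  have hdq : Nat.gcd 3 q1 ∣ q1 := Nat.gcd_dvd_right 3 q1
  have hdpos : 0 < Nat.gcd 3 q1 := Nat.gcd_pos_of_pos_left _ (by norm_num)
  have hN : p * q1 / Nat.gcd 3 q1 = p * (q1 / Nat.gcd 3 q1) := Nat.mul_div_assoc p hdq
  have hcop : Nat.Coprime p q1 := by
    obtain ⟨n, _, hn⟩ := FiniteField.card F p
    rw [hp.coprime_iff_not_dvd]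
    intro hdvd
    have h1 : p ∣ Fintype.card F := by rw [hn]; exact dvd_pow_self p n.ne_zero
    have hpos : 1 ≤ Fintype.card F := Fintype.card_pos
    have h2 : p ∣ Fintype.card F - q1 := Nat.dvd_sub h1 hdvd
    have h3 : Fintype.card F - q1 = 1 := by omega
    rw [h3] at h2
    exact hp.one_lt.ne' (Nat.dvd_one.mp h2)
  have hz : ζ⁻¹ * ζ = 1 := inv_mul_cancel₀ hζ0
  have hpow : ∀ j : ℕ, (!![ζ, 1, 0; 0, ζ, 0; 0, 0, (ζ⁻¹) ^ 2] : Matrix (Fin 3) (Fin 3) F) ^ j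
      = !![ζ ^ j, (j : F) * ζ ^ j * ζ⁻¹, 0; 0, ζ ^ j, 0; 0, 0, ((ζ⁻¹) ^ 2) ^ j] := by
    intro j
    induction j with
    | zero => rw [pow_zero, Matrix.one_fin_three]; simp
    | succ j ih =>
      rw [pow_succ, ih, Matrix.mul_fin_three]
      have e1 : ζ ^ j * 1 + (j : F) * ζ ^ j * ζ⁻¹ * ζ + 0 * 0 = ((j + 1 : ℕ) : F) * ζ ^ (j + 1) * ζ⁻¹ := by
        push_cast
        rw [pow_succ]
        linear_combination ((j : F) * ζ ^ j - ((j : F) + 1) * ζ ^ j) * hz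
      rw [e1]
      simp [pow_succ]
  have hkey : ∀ j : ℕ, ((ζ⁻¹) ^ 2) ^ j = ζ ^ j ↔ q1 ∣ 3 * j := by
    intro j
    rw [← hζ]
    have h1 : ((ζ⁻¹) ^ 2) ^ j * ζ ^ (3 * j) = ζ ^ j := by
      rw [← pow_mul, inv_pow, show 3 * j = 2 * j + j by ring, pow_add, ← mul_assoc,
        inv_mul_cancel₀ (pow_ne_zero _ hζ0), one_mul]
    constructor
    · intro h
      rw [h] at h1
      exact mul_left_cancel₀ (pow_ne_zero j hζ0) (h1.trans (mul_one _).symm)
    · intro h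
      rw [h, mul_one] at h1
      exact h1
  have hdiv : ∀ j : ℕ, q1 ∣ 3 * j ↔ q1 / Nat.gcd 3 q1 ∣ j := by
    intro j
    have hcop2 : Nat.Coprime (3 / Nat.gcd 3 q1) (q1 / Nat.gcd 3 q1) :=
      Nat.coprime_div_gcd_div_gcd hdpos
    obtain ⟨k, hk⟩ := hdq
    obtain ⟨e, he⟩ := hd3
    have hkd : q1 / Nat.gcd 3 q1 = k := Nat.div_eq_of_eq_mul_right hdpos hk
    have hed : 3 / Nat.gcd 3 q1 = e := Nat.div_eq_of_eq_mul_right hdpos he
    rw [hkd, hed] at hcop2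
    rw [hkd]
    constructor
    · intro h
      have h' : Nat.gcd 3 q1 * k ∣ Nat.gcd 3 q1 * (e * j) := by
        rw [← mul_assoc, ← he, ← hk]; exact h
      have h'' : k ∣ e * j := (Nat.mul_dvd_mul_iff_left hdpos).1 h'
      exact (Nat.Coprime.dvd_mul_left hcop2.symm).1 h''
    · intro h
      have h' : Nat.gcd 3 q1 * k ∣ Nat.gcd 3 q1 * (e * j) :=
        Nat.mul_dvd_mul_left _ (Dvd.dvd.mul_left h e)
      rw [← mul_assoc, ← he, ← hk] at h'
      exact h'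
  refine ⟨!![ζ, 1, 0; 0, ζ, 0; 0, 0, (ζ⁻¹) ^ 2], ?_, ⟨ζ ^ (p * (q1 / Nat.gcd 3 q1)), ?_⟩, ?_⟩
  · rw [Matrix.det_fin_three]
    simp
    field_simp
  · rw [hN, hpow]
    have hc0 : ((p * (q1 / Nat.gcd 3 q1) : ℕ) : F) = 0 := by
      rw [Nat.cast_mul, CharP.cast_eq_zero F p, zero_mul]
    have hc1 : ((ζ⁻¹) ^ 2) ^ (p * (q1 / Nat.gcd 3 q1)) = ζ ^ (p * (q1 / Nat.gcd 3 q1)) :=
      (hkey _).2 ((hdiv _).2 (dvd_mul_left _ _))
    rw [hc0, hc1, Matrix.one_fin_three]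
    simp
  · rintro j ⟨c, hc⟩
    rw [hpow, Matrix.one_fin_three] at hc
    have h01 := congrFun (congrFun hc 0) 1
    have h00 := congrFun (congrFun hc 0) 0
    have h22 := congrFun (congrFun hc 2) 2
    simp at h01 h00 h22
    rw [hN]
    have hpj : p ∣ j := by
      have hj0 : (j : F) = 0 := by
        rcases h01 with (h | ⟨h, _⟩) | h
        · exact h
        · exact absurd h hζ0
        · exact absurd h hζ0
      exact (CharP.cast_eq_zero_iff F p j).1 hj0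
    have hqj : q1 / Nat.gcd 3 q1 ∣ j := by
      rw [← hdiv, ← hkey]
      rw [h00, inv_pow, inv_pow]; exact h22
    exact Nat.Coprime.mul_dvd_of_dvd_of_dvd
      (Nat.Coprime.coprime_dvd_right (Nat.div_dvd_of_dvd hdq) hcop) hpj hqj

end Cfsg.Agent.Helper3.Psl3x
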