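import Mathlib
import Cfsg.Agent.Helper3.Psl3x

set_option autoImplicit false

namespace Cfsg.Agent.Helper3.Psu3c

open Matrix

/-- number theory: `q^2-1 ∣ (q+1) j ∧ q^2-1 ∣ (q-2) j ↔ (q^2-1)/gcd 3 (q+1) ∣ j`. -/
theorem nt (q : ℕ) (hq : 2 ≤ q) (j : ℕ) :
    ((q ^ 2 - 1) ∣ (q + 1) * j ∧ (q ^ 2 - 1) ∣ (q - 2) * j) ↔
      ((q ^ 2 - 1) / Nat.gcd 3 (q + 1)) ∣ j := by
  obtain ⟨t, rfl⟩ : ∃ t, q = t + 2 := ⟨q - 2, by omega⟩
  have e2 : t + 2 - 2 = t := by omega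
  have e1 : t + 2 + 1 = t + 3 := by omega
  rw [e2, e1]
  have hQ : (t + 2) ^ 2 - 1 = (t + 1) * (t + 3) := by
    have : (t + 2) ^ 2 = (t + 1) * (t + 3) + 1 := by ring
    omega
  rw [hQ]
  have hdpos : 0 < Nat.gcd 3 (t + 3) := Nat.gcd_pos_of_pos_left _ (by norm_num)
  have hd3 : Nat.gcd 3 (t + 3) ∣ t + 3 := Nat.gcd_dvd_right _ _
  have hdt : Nat.gcd 3 (t + 3) ∣ t := by
    have h3 : Nat.gcd 3 (t + 3) ∣ 3 := Nat.gcd_dvd_left _ _
    exact (Nat.dvd_add_left h3).1 hd3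
  have hg : Nat.gcd (t + 3) t = Nat.gcd 3 (t + 3) := by
    apply Nat.dvd_antisymm
    · apply Nat.dvd_gcd
      · have h1 : Nat.gcd (t + 3) t ∣ t + 3 := Nat.gcd_dvd_left _ _
        have h2 : Nat.gcd (t + 3) t ∣ t := Nat.gcd_dvd_right _ _
        exact (Nat.dvd_add_right h2).1 h1
      · exact Nat.gcd_dvd_left _ _
    · exact Nat.dvd_gcd hd3 hdt
  obtain ⟨d, hd⟩ : ∃ d, d = Nat.gcd 3 (t + 3) := ⟨_, rfl⟩
  rw [← hd] at hdpos hd3 hdt hg ⊢
  obtain ⟨a, ha⟩ := hd3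
  obtain ⟨b, hb⟩ := hdt
  have key : t * a = (t + 3) * b := by
    calc t * a = (d * b) * a := by rw [← hb]
      _ = (d * a) * b := by ring
      _ = (t + 3) * b := by rw [← ha]
  have hmul : d * ((t + 1) * a) = (t + 1) * (t + 3) := by
    calc d * ((t + 1) * a) = (t + 1) * (d * a) := by ring
      _ = (t + 1) * (t + 3) := by rw [← ha]
  have hN : (t + 1) * (t + 3) / d = (t + 1) * a :=
    Nat.div_eq_of_eq_mul_right hdpos hmul.symm
  rw [hN]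
  constructor
  · rintro ⟨h1, h2⟩
    have h3 : (t + 1) * (t + 3) ∣ Nat.gcd ((t + 3) * j) (t * j) := Nat.dvd_gcd h1 h2
    rw [Nat.gcd_mul_right, hg] at h3
    have h4 : d * ((t + 1) * a) ∣ d * j := by
      rw [hmul]; exact h3
    exact (Nat.mul_dvd_mul_iff_left hdpos).1 h4
  · rintro ⟨c, rfl⟩
    constructor
    · refine ⟨a * c, ?_⟩
      ring
    · refine ⟨b * c, ?_⟩
      calc t * ((t + 1) * a * c) = (t + 1) * c * (t * a) := by ring
        _ = (t + 1) * c * ((t + 3) * b) := by rw [key]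
        _ = (t + 1) * (t + 3) * (b * c) := by ring

theorem setup {F : Type*} [Field F] [Fintype F] (p : ℕ) [Fact p.Prime] [CharP F p] (q : ℕ)
    (hF : Fintype.card F = q ^ 2) (hp : p ≠ 2) :
    2 ≤ q ∧ (2 : F) ≠ 0 ∧ (∀ a b : F, (a + b) ^ q = a ^ q + b ^ q) ∧ (∀ a : F, (a ^ q) ^ q = a) ∧
    (∀ a : F, (-a) ^ q = -(a ^ q)) ∧
    ∃ lam y : F, lam ≠ 0 ∧ (∀ k : ℕ, lam ^ k = 1 ↔ (q ^ 2 - 1) ∣ k) ∧ y ≠ 0 ∧ y ^ q = -y⁻¹ := by
  classical
  have hp' : p.Prime := Fact.out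
  have hq2 : 2 ≤ q := by
    have h1 : 1 < Fintype.card F := Fintype.one_lt_card
    rw [hF] at h1
    by_contra hcon
    have : q ≤ 1 := by omega
    interval_cases q <;> simp at h1
  obtain ⟨k, _, hk⟩ := FiniteField.card F p
  have hqd : q ∣ p ^ (k : ℕ) := by
    rw [← hk, hF]; exact dvd_pow_self q two_ne_zero
  obtain ⟨n, _, hn⟩ := (Nat.dvd_prime_pow hp').1 hqd
  have hodd : Odd q := by
    rw [hn]
    exact Odd.pow (hp'.eq_two_or_odd'.resolve_left hp)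
  have h2 : (2 : F) ≠ 0 := by
    intro h
    have h' : ((2 : ℕ) : F) = 0 := by exact_mod_cast h
    rw [CharP.cast_eq_zero_iff F p] at h'
    exact hp ((Nat.prime_dvd_prime_iff_eq hp' Nat.prime_two).1 h')
  have hadd : ∀ a b : F, (a + b) ^ q = a ^ q + b ^ q := by
    intro a b
    rw [hn]
    exact add_pow_char_pow a b p n
  have hqq : ∀ a : F, (a ^ q) ^ q = a := by
    intro a
    rw [← pow_mul, ← sq, ← hF, FiniteField.pow_card]
  have hneg : ∀ a : F, (-a) ^ q = -(a ^ q) := fun a => hodd.neg_pow a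
  obtain ⟨lam, hl0, hl⟩ := Cfsg.Agent.Helper3.Psl3x.exists_gen (F := F)
  rw [hF] at hl
  obtain ⟨m, hm⟩ := hodd
  have hQ : q ^ 2 - 1 = 2 * (m * (q + 1)) := by
    have : q ^ 2 = 2 * (m * (q + 1)) + 1 := by rw [hm]; ring
    omega
  have hmpos : 0 < m := by omega
  have he2 : (lam ^ (m * (q + 1))) * (lam ^ (m * (q + 1))) = 1 := by
    rw [← pow_add, hl, hQ, two_mul]
  have hne1 : lam ^ (m * (q + 1)) ≠ 1 := by
    rw [Ne, hl, hQ]
    intro hdvd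
    have hpos : 0 < m * (q + 1) := Nat.mul_pos hmpos (by omega)
    have := Nat.le_of_dvd hpos hdvd
    omega
  have hem1 : lam ^ (m * (q + 1)) = -1 := by
    rcases mul_self_eq_one_iff.1 he2 with h | h
    · exact absurd h hne1
    · exact h
  have hy0 : lam ^ m ≠ 0 := pow_ne_zero _ hl0
  have hyq1 : (lam ^ m) ^ q * lam ^ m = -1 := by
    rw [← pow_succ, ← pow_mul]; exact hem1
  refine ⟨hq2, h2, hadd, hqq, hneg, lam, lam ^ m, hl0, hl, hy0, ?_⟩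
  calc (lam ^ m) ^ q = ((lam ^ m) ^ q * lam ^ m) * (lam ^ m)⁻¹ := by
        rw [mul_inv_cancel_right₀ hy0]
    _ = -(lam ^ m)⁻¹ := by rw [hyq1, neg_one_mul]

theorem ex_c {F : Type*} [Field F] [Fintype F] (p : ℕ) [Fact p.Prime] [CharP F p] (q : ℕ) (hF : Fintype.card F = q ^ 2) (hp : p ≠ 2) : ∃ M : Matrix (Fin 3) (Fin 3) F, Mᵀ * M.map (fun x => x ^ q) = 1 ∧ M.det = 1 ∧ (∃ c : F, M ^ ((q ^ 2 - 1) / Nat.gcd 3 (q + 1)) = c • (1 : Matrix (Fin 3) (Fin 3) F)) ∧ ∀ j : ℕ, (∃ c : F, M ^ j = c • (1 : Matrix (Fin 3) (Fin 3) F)) → ((q ^ 2 - 1) / Nat.gcd 3 (q + 1)) ∣ j := by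
  classical
  obtain ⟨hq2, h2, hadd, hqq, hneg, lam, y, hl0, hl, hy0, hyq⟩ := setup p q hF hp
  obtain ⟨K, hK⟩ : ∃ K : F, K = (lam ^ q)⁻¹ := ⟨_, rfl⟩
  have hK0 : K ≠ 0 := by rw [hK]; exact inv_ne_zero (pow_ne_zero _ hl0)
  have hLq : lam ^ q = K⁻¹ := by rw [hK, inv_inv]
  have hKq : K ^ q = lam⁻¹ := by rw [hK, inv_pow, hqq]
  obtain ⟨μ, hμ⟩ : ∃ μ : F, μ = lam ^ (q - 1) := ⟨_, rfl⟩
  have hμ0 : μ ≠ 0 := by rw [hμ]; exact pow_ne_zero _ hl0
  have hμK : μ = lam⁻¹ * K⁻¹ := by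
    have h1 : μ * lam = K⁻¹ := by
      rw [hμ, ← pow_succ, ← hLq]; congr 1; omega
    rw [← h1]; field_simp
  have hμq : μ ^ q = μ⁻¹ := by
    rw [hμK, mul_pow, inv_pow, inv_pow, hLq, hKq, inv_inv, inv_inv, mul_inv, inv_inv, inv_inv,
      mul_comm]
  have h2q : (2 : F) ^ q = 2 := by
    have := hadd 1 1
    rw [one_pow, one_add_one_eq_two] at this
    exact this
  have hq0 : q ≠ 0 := by omega
  have hsq : ((lam + K) / 2) ^ q = (K⁻¹ + lam⁻¹) / 2 := by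
    rw [div_pow, hadd, hLq, hKq, h2q]
  have htq : ((K - lam) / 2) ^ q = (lam⁻¹ - K⁻¹) / 2 := by
    rw [div_pow, sub_eq_add_neg, hadd, hneg, hLq, hKq, h2q, ← sub_eq_add_neg]
  have hyiq : (y⁻¹) ^ q = -y := by
    rw [inv_pow, hyq, inv_neg, inv_inv]
  have hpow : ∀ j : ℕ, (!![(lam + K) / 2, (K - lam) / 2 * y, 0;
        (K - lam) / 2 * y⁻¹, (lam + K) / 2, 0; 0, 0, μ] : Matrix (Fin 3) (Fin 3) F) ^ j
      = !![(lam ^ j + K ^ j) / 2, (K ^ j - lam ^ j) / 2 * y, 0;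
        (K ^ j - lam ^ j) / 2 * y⁻¹, (lam ^ j + K ^ j) / 2, 0; 0, 0, μ ^ j] := by
    intro j
    induction j with
    | zero =>
      rw [pow_zero, Matrix.one_fin_three]
      ext i k; fin_cases i <;> fin_cases k <;> simp <;> field_simp <;> ring
    | succ j ih =>
      rw [pow_succ, ih, Matrix.mul_fin_three]
      ext i k; fin_cases i <;> fin_cases k <;> simp [pow_succ] <;> field_simp <;> ring
  have hT : (!![(lam + K) / 2, (K - lam) / 2 * y, 0;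
        (K - lam) / 2 * y⁻¹, (lam + K) / 2, 0; 0, 0, μ] : Matrix (Fin 3) (Fin 3) F)ᵀ
      = !![(lam + K) / 2, (K - lam) / 2 * y⁻¹, 0; (K - lam) / 2 * y, (lam + K) / 2, 0; 0, 0, μ] := by
    ext i k; fin_cases i <;> fin_cases k <;> rfl
  have hMq : (!![(lam + K) / 2, (K - lam) / 2 * y, 0;
        (K - lam) / 2 * y⁻¹, (lam + K) / 2, 0; 0, 0, μ] : Matrix (Fin 3) (Fin 3) F).map
        (fun x => x ^ q)
      = !![(K⁻¹ + lam⁻¹) / 2, -((lam⁻¹ - K⁻¹) / 2 * y⁻¹), 0;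
        -((lam⁻¹ - K⁻¹) / 2 * y), (K⁻¹ + lam⁻¹) / 2, 0; 0, 0, μ⁻¹] := by
    ext i k; fin_cases i <;> fin_cases k <;>
      simp [Matrix.map_apply, mul_pow, hsq, htq, hyq, hyiq, hμq, zero_pow hq0]
  have hU : (!![(lam + K) / 2, (K - lam) / 2 * y, 0;
        (K - lam) / 2 * y⁻¹, (lam + K) / 2, 0; 0, 0, μ] : Matrix (Fin 3) (Fin 3) F)ᵀ *
      (!![(lam + K) / 2, (K - lam) / 2 * y, 0;
        (K - lam) / 2 * y⁻¹, (lam + K) / 2, 0; 0, 0, μ] : Matrix (Fin 3) (Fin 3) F).map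
        (fun x => x ^ q) = 1 := by
    rw [hT, hMq, Matrix.mul_fin_three, Matrix.one_fin_three]
    ext i k; fin_cases i <;> fin_cases k <;> simp <;> field_simp <;> ring
  have hdet : (!![(lam + K) / 2, (K - lam) / 2 * y, 0;
        (K - lam) / 2 * y⁻¹, (lam + K) / 2, 0; 0, 0, μ] : Matrix (Fin 3) (Fin 3) F).det = 1 := by
    rw [Matrix.det_fin_three]
    simp
    rw [hμK]
    field_simp
    ring
  have hA : ∀ j : ℕ, K ^ j = lam ^ j ↔ (q ^ 2 - 1) ∣ (q + 1) * j := by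
    intro j
    rw [← hl]
    have e : lam ^ ((q + 1) * j) * K ^ j = lam ^ j := by
      rw [pow_mul, pow_succ, hLq, mul_pow, inv_pow]; field_simp
    constructor
    · intro h
      rw [h] at e
      exact mul_right_cancel₀ (pow_ne_zero j hl0) (e.trans (one_mul _).symm)
    · intro h
      rw [h, one_mul] at e
      exact e
  have hB : ∀ j : ℕ, μ ^ j = lam ^ j ↔ (q ^ 2 - 1) ∣ (q - 2) * j := by
    intro j
    rw [← hl]
    have e : lam ^ ((q - 2) * j) * lam ^ j = μ ^ j := by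
      rw [hμ, ← pow_mul, ← pow_add]
      congr 1
      obtain ⟨t, rfl⟩ : ∃ t, q = t + 2 := ⟨q - 2, by omega⟩
      have e1 : t + 2 - 2 = t := by omega
      have e2 : t + 2 - 1 = t + 1 := by omega
      rw [e1, e2]; ring
    constructor
    · intro h
      rw [h] at e
      exact mul_right_cancel₀ (pow_ne_zero j hl0) (e.trans (one_mul _).symm)
    · intro h
      rw [h, one_mul] at e
      exact e.symm
  refine ⟨!![(lam + K) / 2, (K - lam) / 2 * y, 0;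
        (K - lam) / 2 * y⁻¹, (lam + K) / 2, 0; 0, 0, μ], hU, hdet,
      ⟨lam ^ ((q ^ 2 - 1) / Nat.gcd 3 (q + 1)), ?_⟩, ?_⟩
  · have hN := (nt q hq2 ((q ^ 2 - 1) / Nat.gcd 3 (q + 1))).2 dvd_rfl
    rw [hpow, (hA _).2 hN.1, (hB _).2 hN.2, Matrix.one_fin_three]
    ext i k; fin_cases i <;> fin_cases k <;> simp <;> field_simp <;> ring
  · rintro j ⟨c, hc⟩
    rw [hpow, Matrix.one_fin_three] at hc
    have h01 := congrFun (congrFun hc 0) 1
    have h00 := congrFun (congrFun hc 0) 0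
    have h22 := congrFun (congrFun hc 2) 2
    simp at h01 h00 h22
    have hKj : K ^ j = lam ^ j := by
      rcases h01 with (h | h) | h
      · exact sub_eq_zero.1 h
      · exact absurd h h2
      · exact absurd h hy0
    have hc' : lam ^ j = c := by
      rw [hKj] at h00
      rw [← h00]
      field_simp
      ring
    have hμj : μ ^ j = lam ^ j := by rw [hc']; exact h22
    exact (nt q hq2 j).1 ⟨(hA j).1 hKj, (hB j).1 hμj⟩

end Cfsg.Agent.Helper3.Psu3c
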