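import Mathlib

set_option autoImplicit false

namespace Cfsg.Agent.Helper3.Psu3x

open Matrix

theorem exists_unit_order {F : Type*} [Field F] [Fintype F] (q : ℕ) (hF : Fintype.card F = q ^ 2) :
    ∃ ζ : F, ζ ≠ 0 ∧ ∀ k : ℕ, ζ ^ k = 1 ↔ (q + 1) ∣ k := by
  classical
  obtain ⟨g, hg⟩ := IsCyclic.exists_generator (α := Fˣ)
  have ho : orderOf g = Fintype.card F - 1 := by
    rw [orderOf_eq_card_of_forall_mem_zpowers hg, Nat.card_eq_fintype_card, Fintype.card_units]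
  have hq2 : 2 ≤ q := by
    have h1 : 1 < Fintype.card F := Fintype.one_lt_card
    rw [hF] at h1
    by_contra hcon
    have : q ≤ 1 := by omega
    interval_cases q <;> simp at h1
  have hfac : Fintype.card F - 1 = (q - 1) * (q + 1) := by
    rw [hF]
    obtain ⟨t, rfl⟩ : ∃ t, q = t + 2 := ⟨q - 2, by omega⟩
    have : (t + 2) ^ 2 = (t + 2 - 1) * (t + 2 + 1) + 1 := by
      have e : t + 2 - 1 = t + 1 := by omega
      rw [e]; ring
    omega
  have hq1 : 0 < q - 1 := by omega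
  refine ⟨((g ^ (q - 1) : Fˣ) : F), (g ^ (q - 1)).ne_zero, fun k => ?_⟩
  rw [← Units.val_pow_eq_pow_val, Units.val_eq_one, ← pow_mul, ← orderOf_dvd_iff_pow_eq_one, ho,
    hfac, Nat.mul_dvd_mul_iff_left hq1]

theorem ex_a {F : Type*} [Field F] [Fintype F] (p : ℕ) [Fact p.Prime] [CharP F p] (q : ℕ) (hF : Fintype.card F = q ^ 2) (hp : p ≠ 2) : ∃ M : Matrix (Fin 3) (Fin 3) F, Mᵀ * M.map (fun x => x ^ q) = 1 ∧ M.det = 1 ∧ (∃ c : F, M ^ (q + 1) = c • (1 : Matrix (Fin 3) (Fin 3) F)) ∧ ∀ j : ℕ, (∃ c : F, M ^ j = c • (1 : Matrix (Fin 3) (Fin 3) F)) → (q + 1) ∣ j := by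
  classical
  obtain ⟨ζ, hζ0, hζ⟩ := exists_unit_order (F := F) q hF
  have hq0 : q ≠ 0 := by
    rintro rfl
    have h1 : 1 < Fintype.card F := Fintype.one_lt_card
    rw [hF] at h1
    simp at h1
  have h1 : ζ ^ (q + 1) = 1 := (hζ _).2 dvd_rfl
  have h1' : (ζ⁻¹) ^ (q + 1) = 1 := by rw [inv_pow, h1, inv_one]
  refine ⟨Matrix.diagonal ![ζ, ζ⁻¹, 1], ?_, ?_, ⟨1, ?_⟩, ?_⟩
  · have hmap : (Matrix.diagonal ![ζ, ζ⁻¹, 1]).map (fun x : F => x ^ q)
        = Matrix.diagonal (fun i => (![ζ, ζ⁻¹, 1] i) ^ q) := by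
      ext i j
      by_cases hij : i = j
      · subst hij; simp
      · simp [Matrix.diagonal_apply_ne _ hij, hq0]
    rw [Matrix.diagonal_transpose, hmap, Matrix.diagonal_mul_diagonal,
      ← Matrix.diagonal_one]
    congr 1
    funext i
    fin_cases i
    · show ζ * ζ ^ q = 1
      rw [← pow_succ']; exact h1
    · show ζ⁻¹ * (ζ⁻¹) ^ q = 1
      rw [← pow_succ']; exact h1'
    · show (1 : F) * 1 ^ q = 1
      simp
  · rw [Matrix.det_diagonal, Fin.prod_univ_three]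
    simp [hζ0]
  · rw [Matrix.diagonal_pow, one_smul, ← Matrix.diagonal_one]
    congr 1
    funext i
    fin_cases i
    · simpa using h1
    · simpa using h1
    · simp
  · rintro j ⟨c, hc⟩
    rw [Matrix.diagonal_pow, Matrix.smul_one_eq_diagonal] at hc
    have h := Matrix.diagonal_injective hc
    have h0 := congrFun h 0
    have h2 := congrFun h 2
    simp at h0 h2
    rw [← hζ, h0, ← h2]

end Cfsg.Agent.Helper3.Psu3x
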