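import Mathlib
import Cfsg.Prelude.Def_GeometricClasses

set_option autoImplicit false

open scoped MatrixGroups

namespace Cfsg.Agent.Helper3.S5998p3

theorem conj_aux {F : Type*} [Field F] (a u g a' : GL (Fin 3) F)
    (A Y Wa : Matrix (Fin 3) (Fin 3) F) (c : F)
    (ha : (a : Matrix (Fin 3) (Fin 3) F) * (g : Matrix (Fin 3) (Fin 3) F) =
      (g : Matrix (Fin 3) (Fin 3) F) * A)
    (hu : (u : Matrix (Fin 3) (Fin 3) F) * (g : Matrix (Fin 3) (Fin 3) F) =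
      c • ((g : Matrix (Fin 3) (Fin 3) F) * Y))
    (hWa : Y * A = Wa * Y)
    (ha' : (a' : Matrix (Fin 3) (Fin 3) F) * (g : Matrix (Fin 3) (Fin 3) F) =
      (g : Matrix (Fin 3) (Fin 3) F) * Wa) : u * a * u⁻¹ = a' := by
  have h1 : (u : Matrix (Fin 3) (Fin 3) F) * (a : Matrix (Fin 3) (Fin 3) F) *
      (g : Matrix (Fin 3) (Fin 3) F) =
      (a' : Matrix (Fin 3) (Fin 3) F) * (u : Matrix (Fin 3) (Fin 3) F) *
      (g : Matrix (Fin 3) (Fin 3) F) := by
    calc (u : Matrix (Fin 3) (Fin 3) F) * (a : Matrix (Fin 3) (Fin 3) F) *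
        (g : Matrix (Fin 3) (Fin 3) F)
        = (u : Matrix (Fin 3) (Fin 3) F) * ((a : Matrix (Fin 3) (Fin 3) F) *
          (g : Matrix (Fin 3) (Fin 3) F)) := by rw [mul_assoc]
      _ = (u : Matrix (Fin 3) (Fin 3) F) * (g : Matrix (Fin 3) (Fin 3) F) * A := by
          rw [ha, mul_assoc]
      _ = c • ((g : Matrix (Fin 3) (Fin 3) F) * (Y * A)) := by
          rw [hu, Matrix.smul_mul, mul_assoc]
      _ = c • ((g : Matrix (Fin 3) (Fin 3) F) * Wa * Y) := by rw [hWa, mul_assoc]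
      _ = c • ((a' : Matrix (Fin 3) (Fin 3) F) * (g : Matrix (Fin 3) (Fin 3) F) * Y) := by
          rw [ha']
      _ = (a' : Matrix (Fin 3) (Fin 3) F) * (c • ((g : Matrix (Fin 3) (Fin 3) F) * Y)) := by
          rw [Matrix.mul_smul, mul_assoc]
      _ = (a' : Matrix (Fin 3) (Fin 3) F) * (u : Matrix (Fin 3) (Fin 3) F) *
          (g : Matrix (Fin 3) (Fin 3) F) := by rw [← hu, mul_assoc]
  have h2 : u * a * g = a' * u * g := by
    apply Units.ext
    simpa only [Units.val_mul] using h1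
  have h3 : u * a = a' * u := mul_right_cancel h2
  rw [h3, mul_inv_cancel_right]

theorem p3 {F : Type*} [Field F] (R : Subgroup (GL (Fin 3) F)) [Finite R] (a b u g : GL (Fin 3) F) (hRab : R = Subgroup.closure {a, b})
    (A B Y Wa Wb : Matrix (Fin 3) (Fin 3) F) (c : F)
    (ha : (a : Matrix (Fin 3) (Fin 3) F) * (g : Matrix (Fin 3) (Fin 3) F) = (g : Matrix (Fin 3) (Fin 3) F) * A)
    (hb : (b : Matrix (Fin 3) (Fin 3) F) * (g : Matrix (Fin 3) (Fin 3) F) = (g : Matrix (Fin 3) (Fin 3) F) * B)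
    (hu : (u : Matrix (Fin 3) (Fin 3) F) * (g : Matrix (Fin 3) (Fin 3) F) = c • ((g : Matrix (Fin 3) (Fin 3) F) * Y))
    (hWa : Y * A = Wa * Y) (hWb : Y * B = Wb * Y)
    (hWaR : ∃ a' ∈ R, (a' : Matrix (Fin 3) (Fin 3) F) * (g : Matrix (Fin 3) (Fin 3) F) = (g : Matrix (Fin 3) (Fin 3) F) * Wa)
    (hWbR : ∃ b' ∈ R, (b' : Matrix (Fin 3) (Fin 3) F) * (g : Matrix (Fin 3) (Fin 3) F) = (g : Matrix (Fin 3) (Fin 3) F) * Wb) :
    u ∈ Cfsg.Geo.subgroupNormalizer R := by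
  obtain ⟨a', ha'R, ha'⟩ := hWaR
  obtain ⟨b', hb'R, hb'⟩ := hWbR
  have hca : u * a * u⁻¹ = a' := conj_aux a u g a' A Y Wa c ha hu hWa ha'
  have hcb : u * b * u⁻¹ = b' := conj_aux b u g b' B Y Wb c hb hu hWb hb'
  have hall : ∀ n, n ∈ R → u * n * u⁻¹ ∈ R := by
    intro n hn
    have hn' : n ∈ Subgroup.closure ({a, b} : Set (GL (Fin 3) F)) := hRab ▸ hn
    induction hn' using Subgroup.closure_induction with
    | mem x hx =>
      rcases hx with rfl | rfl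
      · rw [hca]; exact ha'R
      · rw [hcb]; exact hb'R
    | one => simp [R.one_mem]
    | mul x y _ _ hx hy =>
      have e : u * (x * y) * u⁻¹ = (u * x * u⁻¹) * (u * y * u⁻¹) := by group
      rw [e]
      exact R.mul_mem (hx (hRab ▸ ‹x ∈ Subgroup.closure {a, b}›)) (hy (hRab ▸ ‹y ∈ Subgroup.closure {a, b}›))
    | inv x _ hx =>
      have e : u * x⁻¹ * u⁻¹ = (u * x * u⁻¹)⁻¹ := by group
      rw [e]
      exact R.inv_mem (hx (hRab ▸ ‹x ∈ Subgroup.closure {a, b}›))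
  unfold Cfsg.Geo.subgroupNormalizer
  exact Subgroup.mem_normalizer_fintype hall

end Cfsg.Agent.Helper3.S5998p3
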