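import Mathlib
import Cfsg.Prelude.Def_GeometricClasses

set_option autoImplicit false

open scoped MatrixGroups

namespace Cfsg.Agent.Helper3.S5998p4

theorem p4 {F : Type*} [Field F] (N : Subgroup (GL (Fin 3) F)) (x k g : GL (Fin 3) F) (Y E : Matrix (Fin 3) (Fin 3) F) (c : F)
    (hx : (x : Matrix (Fin 3) (Fin 3) F) * (k : Matrix (Fin 3) (Fin 3) F) = c • ((k : Matrix (Fin 3) (Fin 3) F) * Y))
    (hE : E * Y = Y * E) (hdet : E.det * (k : Matrix (Fin 3) (Fin 3) F).det = (g : Matrix (Fin 3) (Fin 3) F).det)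
    (hN : ∀ u : GL (Fin 3) F, (u : Matrix (Fin 3) (Fin 3) F) * (g : Matrix (Fin 3) (Fin 3) F) = c • ((g : Matrix (Fin 3) (Fin 3) F) * Y) → u ∈ N) :
    ∃ h ∈ Cfsg.Geo.specialLinear (Fin 3) F, h⁻¹ * x * h ∈ N := by
  have hg0 : (g : Matrix (Fin 3) (Fin 3) F).det ≠ 0 :=
    ((Matrix.isUnit_iff_isUnit_det _).1 (Units.isUnit g)).ne_zero
  have hE0 : E.det ≠ 0 := by
    intro h0
    rw [h0, zero_mul] at hdet
    exact hg0 hdet.symm
  obtain ⟨e, heE⟩ : ∃ e : GL (Fin 3) F, (e : Matrix (Fin 3) (Fin 3) F) = E :=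
    ⟨Matrix.GeneralLinearGroup.mkOfDetNeZero E hE0, rfl⟩
  refine ⟨k * e * g⁻¹, ?_, ?_⟩
  · unfold Cfsg.Geo.specialLinear
    rw [MonoidHom.mem_ker, map_mul, map_mul, map_inv]
    have h1 : Matrix.GeneralLinearGroup.det k * Matrix.GeneralLinearGroup.det e =
        Matrix.GeneralLinearGroup.det g := by
      apply Units.ext
      rw [Units.val_mul]
      simp only [Matrix.GeneralLinearGroup.val_det_apply]
      rw [heE, mul_comm]
      exact hdet
    rw [h1, mul_inv_cancel]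
  · apply hN
    have e1 : (k * e * g⁻¹)⁻¹ * x * (k * e * g⁻¹) * g = g * e⁻¹ * k⁻¹ * x * k * e := by group
    have e2 : (((k * e * g⁻¹)⁻¹ * x * (k * e * g⁻¹) : GL (Fin 3) F) : Matrix (Fin 3) (Fin 3) F) *
        (g : Matrix (Fin 3) (Fin 3) F) =
        ((g * e⁻¹ * k⁻¹ * x * k * e : GL (Fin 3) F) : Matrix (Fin 3) (Fin 3) F) := by
      rw [← Units.val_mul, e1]
    rw [e2]
    simp only [Units.val_mul]
    have hk : ((k⁻¹ : GL (Fin 3) F) : Matrix (Fin 3) (Fin 3) F) *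
        (k : Matrix (Fin 3) (Fin 3) F) = 1 := by
      rw [← Units.val_mul, inv_mul_cancel, Units.val_one]
    have hee : ((e⁻¹ : GL (Fin 3) F) : Matrix (Fin 3) (Fin 3) F) *
        (e : Matrix (Fin 3) (Fin 3) F) = 1 := by
      rw [← Units.val_mul, inv_mul_cancel, Units.val_one]
    have hE' : Y * (e : Matrix (Fin 3) (Fin 3) F) = (e : Matrix (Fin 3) (Fin 3) F) * Y := by
      rw [heE]; exact hE.symm
    calc (g : Matrix (Fin 3) (Fin 3) F) * ((e⁻¹ : GL (Fin 3) F) : Matrix (Fin 3) (Fin 3) F) *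
          ((k⁻¹ : GL (Fin 3) F) : Matrix (Fin 3) (Fin 3) F) * (x : Matrix (Fin 3) (Fin 3) F) *
          (k : Matrix (Fin 3) (Fin 3) F) * (e : Matrix (Fin 3) (Fin 3) F)
        = (g : Matrix (Fin 3) (Fin 3) F) * ((e⁻¹ : GL (Fin 3) F) : Matrix (Fin 3) (Fin 3) F) *
          ((k⁻¹ : GL (Fin 3) F) : Matrix (Fin 3) (Fin 3) F) * ((x : Matrix (Fin 3) (Fin 3) F) *
          (k : Matrix (Fin 3) (Fin 3) F)) * (e : Matrix (Fin 3) (Fin 3) F) := by
          simp only [mul_assoc]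
      _ = c • ((g : Matrix (Fin 3) (Fin 3) F) * ((e⁻¹ : GL (Fin 3) F) : Matrix (Fin 3) (Fin 3) F) *
          (((k⁻¹ : GL (Fin 3) F) : Matrix (Fin 3) (Fin 3) F) * (k : Matrix (Fin 3) (Fin 3) F)) *
          (Y * (e : Matrix (Fin 3) (Fin 3) F))) := by
          rw [hx]
          simp only [Matrix.mul_smul, Matrix.smul_mul, mul_assoc]
      _ = c • ((g : Matrix (Fin 3) (Fin 3) F) * (((e⁻¹ : GL (Fin 3) F) : Matrix (Fin 3) (Fin 3) F) *
          (e : Matrix (Fin 3) (Fin 3) F)) * Y) := by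
          rw [hk, mul_one, hE']
          simp only [mul_assoc]
      _ = c • ((g : Matrix (Fin 3) (Fin 3) F) * Y) := by rw [hee, mul_one]

end Cfsg.Agent.Helper3.S5998p4
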