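import Cfsg.Prelude.Def_SolvableStructure
import Mathlib

set_option autoImplicit false

/-!
Helper library (helper3): supersolvable groups (`Cfsg.IsSupersolvable`).
-/

namespace Cfsg.Agent.Helper3

universe u v

/-- `SSReach K`: `K` is reachable from `⊥` by a chain of normal subgroups, each obtained
from the previous one by adjoining one element. -/
inductive SSReach {G : Type u} [Group G] : Subgroup G → Prop
  | bot : SSReach ⊥
  | step (K : Subgroup G) (g : G) : SSReach K → (K ⊔ Subgroup.zpowers g).Normal →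
      SSReach (K ⊔ Subgroup.zpowers g)

theorem SSReach.normal {G : Type u} [Group G] {K : Subgroup G} (h : SSReach K) : K.Normal := by
  cases h with
  | bot => exact Subgroup.normal_bot
  | step K g _ hN => exact hN

theorem ssReach_of_chain {G : Type u} [Group G] (n : ℕ) (H : Fin (n + 1) → Subgroup G)
    (h0 : H 0 = ⊥) (hnorm : ∀ i, (H i).Normal)
    (hstep : ∀ i : Fin n, ∃ g : G, H i.succ = H i.castSucc ⊔ Subgroup.zpowers g)
    (i : Fin (n + 1)) : SSReach (H i) := by
  induction i using Fin.induction with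
  | zero => rw [h0]; exact SSReach.bot
  | succ i ih =>
    obtain ⟨g, hg⟩ := hstep i
    have hN := hnorm i.succ
    rw [hg] at hN ⊢
    exact SSReach.step _ g ih hN

theorem chain_of_ssReach {G : Type u} [Group G] {K : Subgroup G} (h : SSReach K) :
    ∃ (n : ℕ) (H : Fin (n + 1) → Subgroup G),
      H 0 = ⊥ ∧ H (Fin.last n) = K ∧ (∀ i, (H i).Normal) ∧
        ∀ i : Fin n, ∃ g : G, H i.succ = H i.castSucc ⊔ Subgroup.zpowers g := by
  induction h with
  | bot =>
    exact ⟨0, fun _ => ⊥, rfl, rfl, fun _ => Subgroup.normal_bot, fun i => i.elim0⟩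
  | step K g _ hN ih =>
    obtain ⟨n, H, h0, hl, hn, hs⟩ := ih
    refine ⟨n + 1, Fin.snoc H (K ⊔ Subgroup.zpowers g), ?_, ?_, ?_, ?_⟩
    · rw [← Fin.castSucc_zero, Fin.snoc_castSucc]; exact h0
    · rw [Fin.snoc_last]
    · intro i
      induction i using Fin.lastCases with
      | last => rw [Fin.snoc_last]; exact hN
      | cast j => rw [Fin.snoc_castSucc]; exact hn j
    · intro i
      induction i using Fin.lastCases with
      | last =>
        refine ⟨g, ?_⟩
        rw [Fin.succ_last, Fin.snoc_last, Fin.snoc_castSucc, hl]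
      | cast j =>
        obtain ⟨g', hg'⟩ := hs j
        refine ⟨g', ?_⟩
        rw [Fin.succ_castSucc, Fin.snoc_castSucc, Fin.snoc_castSucc]
        exact hg'

theorem isSupersolvable_iff_reach {G : Type u} [Group G] :
    Cfsg.IsSupersolvable G ↔ SSReach (⊤ : Subgroup G) := by
  constructor
  · rintro ⟨n, H, h0, hl, hn, hs⟩
    rw [← hl]
    exact ssReach_of_chain n H h0 hn hs _
  · intro h
    obtain ⟨n, H, h0, hl, hn, hs⟩ := chain_of_ssReach h
    exact ⟨n, H, h0, hl, hn, hs⟩

/-- transport along a hom that maps normal subgroups to normal subgroups -/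
theorem SSReach.map_of_normal {G : Type u} {G' : Type v} [Group G] [Group G'] (f : G →* G')
    (hf : ∀ K : Subgroup G, K.Normal → (K.map f).Normal) {K : Subgroup G} (h : SSReach K) :
    SSReach (K.map f) := by
  induction h with
  | bot => rw [Subgroup.map_bot]; exact SSReach.bot
  | step K g _ hN ih =>
    have hN' := hf _ hN
    rw [Subgroup.map_sup, MonoidHom.map_zpowers] at hN' ⊢
    exact SSReach.step _ _ ih hN'

theorem SSReach.map_surj {G : Type u} {G' : Type v} [Group G] [Group G'] (f : G →* G')
    (hf : Function.Surjective f) {K : Subgroup G} (h : SSReach K) : SSReach (K.map f) :=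
  h.map_of_normal f (fun _ hK => hK.map f hf)

/-- pull back along a surjection whose kernel is reachable -/
theorem SSReach.comap_surj {G : Type u} {G' : Type v} [Group G] [Group G'] (f : G →* G')
    (hf : Function.Surjective f) (hker : SSReach f.ker) {K : Subgroup G'} (h : SSReach K) :
    SSReach (K.comap f) := by
  induction h with
  | bot => rw [MonoidHom.comap_bot]; exact hker
  | step K x _ hN ih =>
    obtain ⟨g, rfl⟩ := hf x
    have hN' : ((K ⊔ Subgroup.zpowers (f g)).comap f).Normal := hN.comap f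
    have e : (K ⊔ Subgroup.zpowers (f g)).comap f = K.comap f ⊔ Subgroup.zpowers g := by
      have e1 : K ⊔ Subgroup.zpowers (f g) = (K.comap f ⊔ Subgroup.zpowers g).map f := by
        rw [Subgroup.map_sup, MonoidHom.map_zpowers, Subgroup.map_comap_eq_self_of_surjective hf]
      rw [e1, Subgroup.comap_map_eq]
      apply sup_eq_left.mpr
      exact le_sup_of_le_left (fun x hx => by
        rw [Subgroup.mem_comap, MonoidHom.mem_ker.mp hx]; exact one_mem _)
    rw [e] at hN' ⊢
    exact SSReach.step _ _ ih hN'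

/-- a subgroup of `K ⊔ zpowers g` (with `K` normal) is generated by its intersection with `K`
and one element. -/
theorem cyc_step {G : Type u} [Group G] (K : Subgroup G) [K.Normal] (g : G) (L : Subgroup G)
    (hL : L ≤ K ⊔ Subgroup.zpowers g) : ∃ h ∈ L, L ≤ (K ⊓ L) ⊔ Subgroup.zpowers h := by
  have hle : L.map (QuotientGroup.mk' K) ≤ Subgroup.zpowers (QuotientGroup.mk' K g) := by
    have := Subgroup.map_mono (f := QuotientGroup.mk' K) hL
    rw [Subgroup.map_sup, MonoidHom.map_zpowers] at this
    have hK : K.map (QuotientGroup.mk' K) = ⊥ := by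
      rw [eq_bot_iff]
      rintro _ ⟨k, hk, rfl⟩
      exact Subgroup.mem_bot.mpr ((QuotientGroup.eq_one_iff k).mpr hk)
    rw [hK, bot_sup_eq] at this
    exact this
  haveI : IsCyclic (L.map (QuotientGroup.mk' K)) := Subgroup.isCyclic_of_le hle
  obtain ⟨⟨y, hy⟩, hgen⟩ := IsCyclic.exists_generator (α := L.map (QuotientGroup.mk' K))
  obtain ⟨h, hh, rfl⟩ := hy
  refine ⟨h, hh, ?_⟩
  intro l hl
  have h1 := hgen ⟨QuotientGroup.mk' K l, Subgroup.mem_map_of_mem _ hl⟩
  obtain ⟨m, hm⟩ := Subgroup.mem_zpowers_iff.mp h1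
  have hm' : (QuotientGroup.mk' K h) ^ m = QuotientGroup.mk' K l := by
    have := congrArg Subtype.val hm
    simpa using this
  have h2 : l * (h ^ m)⁻¹ ∈ K := by
    rw [← QuotientGroup.eq_one_iff, ← QuotientGroup.mk'_apply, map_mul, map_inv, map_zpow, hm']
    simp
  have h3 : l * (h ^ m)⁻¹ ∈ L := mul_mem hl (inv_mem (zpow_mem hh m))
  have h4 : l = (l * (h ^ m)⁻¹) * h ^ m := by simp
  rw [h4]
  exact mul_mem (Subgroup.mem_sup_left ⟨h2, h3⟩)
    (Subgroup.mem_sup_right (zpow_mem (Subgroup.mem_zpowers h) m))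

theorem SSReach.subgroupOf {G : Type u} [Group G] (H : Subgroup G) {K : Subgroup G}
    (h : SSReach K) : SSReach (K.subgroupOf H) := by
  induction h with
  | bot => rw [Subgroup.bot_subgroupOf]; exact SSReach.bot
  | step K g hK hN ih =>
    haveI := hK.normal
    obtain ⟨h, hh, hle⟩ := cyc_step K g ((K ⊔ Subgroup.zpowers g) ⊓ H) inf_le_left
    have hN' : ((K ⊔ Subgroup.zpowers g).subgroupOf H).Normal := hN.subgroupOf H
    have e : (K ⊔ Subgroup.zpowers g).subgroupOf H
        = K.subgroupOf H ⊔ Subgroup.zpowers (⟨h, hh.2⟩ : H) := by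
      apply Subgroup.map_injective H.subtype_injective
      rw [Subgroup.subgroupOf_map_subtype, Subgroup.map_sup, Subgroup.subgroupOf_map_subtype,
        MonoidHom.map_zpowers]
      apply le_antisymm
      · refine hle.trans (sup_le_sup ?_ le_rfl)
        exact fun x hx => ⟨hx.1, hx.2.2⟩
      · apply sup_le
        · exact fun x hx => ⟨Subgroup.mem_sup_left hx.1, hx.2⟩
        · rw [Subgroup.zpowers_le]; exact hh
    rw [e] at hN' ⊢
    exact SSReach.step _ _ ih hN'

theorem isSupersolvable_subgroup {G : Type u} [Group G] (hG : Cfsg.IsSupersolvable G)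
    (H : Subgroup G) : Cfsg.IsSupersolvable H := by
  rw [isSupersolvable_iff_reach] at hG ⊢
  have := hG.subgroupOf H
  rwa [Subgroup.top_subgroupOf] at this

theorem isSupersolvable_of_surjective {G : Type u} {G' : Type v} [Group G] [Group G']
    (hG : Cfsg.IsSupersolvable G) (f : G →* G') (hf : Function.Surjective f) :
    Cfsg.IsSupersolvable G' := by
  rw [isSupersolvable_iff_reach] at hG ⊢
  have := hG.map_surj f hf
  rwa [← MonoidHom.range_eq_map, MonoidHom.range_eq_top.mpr hf] at this

theorem isSupersolvable_quotient {G : Type u} [Group G] (hG : Cfsg.IsSupersolvable G)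
    (N : Subgroup G) [N.Normal] : Cfsg.IsSupersolvable (G ⧸ N) :=
  isSupersolvable_of_surjective hG (QuotientGroup.mk' N) (QuotientGroup.mk'_surjective N)

theorem isSupersolvable_of_mulEquiv {G : Type u} {G' : Type v} [Group G] [Group G']
    (hG : Cfsg.IsSupersolvable G) (e : G ≃* G') : Cfsg.IsSupersolvable G' :=
  isSupersolvable_of_surjective hG e.toMonoidHom e.surjective

/-- a cyclic normal subgroup is reachable -/
theorem ssReach_of_isCyclic {G : Type u} [Group G] (N : Subgroup G) [N.Normal] [IsCyclic N] :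
    SSReach N := by
  obtain ⟨g, hg⟩ := (N.isCyclic_iff_exists_zpowers_eq_top).mp inferInstance
  have hN : (⊥ ⊔ Subgroup.zpowers g : Subgroup G).Normal := by
    rw [bot_sup_eq, hg]; infer_instance
  have := SSReach.step ⊥ g SSReach.bot hN
  rwa [bot_sup_eq, hg] at this

/-- extension of a reachable-kernel surjection -/
theorem isSupersolvable_of_ker {G : Type u} {G' : Type v} [Group G] [Group G']
    (f : G →* G') (hf : Function.Surjective f) (hker : SSReach f.ker)
    (hG' : Cfsg.IsSupersolvable G') : Cfsg.IsSupersolvable G := by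
  rw [isSupersolvable_iff_reach] at hG' ⊢
  have := SSReach.comap_surj f hf hker hG'
  rwa [Subgroup.comap_top] at this

theorem isSupersolvable_of_cyclic_normal {G : Type u} [Group G] (N : Subgroup G) [N.Normal]
    [IsCyclic N] (h : Cfsg.IsSupersolvable (G ⧸ N)) : Cfsg.IsSupersolvable G := by
  apply isSupersolvable_of_ker (QuotientGroup.mk' N) (QuotientGroup.mk'_surjective N) ?_ h
  rw [QuotientGroup.ker_mk']
  exact ssReach_of_isCyclic N

theorem map_inl_eq_prod_bot {G : Type u} {H : Type v} [Group G] [Group H] (K : Subgroup G) :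
    K.map (MonoidHom.inl G H) = K.prod ⊥ := by
  ext ⟨a, b⟩
  simp only [Subgroup.mem_map, MonoidHom.inl_apply, Prod.mk.injEq, Subgroup.mem_prod,
    Subgroup.mem_bot]
  constructor
  · rintro ⟨x, hx, rfl, rfl⟩
    exact ⟨hx, rfl⟩
  · rintro ⟨ha, rfl⟩
    exact ⟨a, ha, rfl, rfl⟩

theorem isSupersolvable_prod {G : Type u} {H : Type v} [Group G] [Group H]
    (hG : Cfsg.IsSupersolvable G) (hH : Cfsg.IsSupersolvable H) :
    Cfsg.IsSupersolvable (G × H) := by
  apply isSupersolvable_of_ker (MonoidHom.snd G H) Prod.snd_surjective ?_ hH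
  rw [isSupersolvable_iff_reach] at hG
  have := hG.map_of_normal (MonoidHom.inl G H) (fun K hK => by
    rw [map_inl_eq_prod_bot]
    haveI := hK
    infer_instance)
  rwa [map_inl_eq_prod_bot, ← MonoidHom.ker_snd] at this

end Cfsg.Agent.Helper3
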