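import Cfsg.Agent.Helper3.Supersolv
import Cfsg.Agent.Helper3.ElemAb

set_option autoImplicit false

/-!
Helper library (helper3): supersolvable groups, part 2 (normal subgroups of prime order,
maximal subgroups).
-/

namespace Cfsg.Agent.Helper3

universe u v

/-- in a cyclic normal subgroup `zpowers g`, the subgroup generated by a power of `g` is normal -/
theorem zpowers_pow_normal {G : Type u} [Group G] (g : G) (hN : (Subgroup.zpowers g).Normal)
    (k : ℕ) : (Subgroup.zpowers (g ^ k)).Normal := by
  constructor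
  intro m hm x
  obtain ⟨j, rfl⟩ := Subgroup.mem_zpowers_iff.mp hm
  have h1 : x * g * x⁻¹ ∈ Subgroup.zpowers g := hN.conj_mem g (Subgroup.mem_zpowers g) x
  obtain ⟨i, hi⟩ := Subgroup.mem_zpowers_iff.mp h1
  have h2 : x * (g ^ k) ^ j * x⁻¹ = ((g ^ k) ^ i) ^ j := by
    have e1 : x * (g ^ k) ^ j * x⁻¹ = MulAut.conj x ((g ^ k) ^ j) := by simp
    have e2 : MulAut.conj x g = g ^ i := by rw [hi]; simp
    rw [e1, map_zpow, map_pow, e2]
    congr 1
    rw [← zpow_natCast, ← zpow_natCast, ← zpow_mul, ← zpow_mul, mul_comm]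
  rw [h2]
  exact zpow_mem (zpow_mem (Subgroup.mem_zpowers _) i) j

theorem exists_normal_prime_card {G : Type u} [Group G] [Finite G] {K : Subgroup G}
    (h : SSReach K) (hK : K ≠ ⊥) :
    ∃ N : Subgroup G, N ≤ K ∧ N.Normal ∧ (Nat.card N).Prime := by
  induction h with
  | bot => exact absurd rfl hK
  | step K g _ hN ih =>
    by_cases hK0 : K = ⊥
    · subst hK0
      rw [bot_sup_eq] at hN hK ⊢
      have hg : g ≠ 1 := by
        intro h1
        apply hK
        rw [h1, Subgroup.zpowers_one_eq_bot]
      have hn1 : orderOf g ≠ 1 := fun h1 => hg (orderOf_eq_one_iff.mp h1)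
      have hp : (orderOf g).minFac.Prime := Nat.minFac_prime hn1
      have hord : orderOf (g ^ (orderOf g / (orderOf g).minFac)) = (orderOf g).minFac :=
        orderOf_pow_orderOf_div (orderOf_pos g).ne' (Nat.minFac_dvd _)
      refine ⟨Subgroup.zpowers (g ^ (orderOf g / (orderOf g).minFac)), ?_, ?_, ?_⟩
      · rw [Subgroup.zpowers_le]
        exact pow_mem (Subgroup.mem_zpowers g) _
      · exact zpowers_pow_normal g hN _
      · rw [Nat.card_zpowers, hord]; exact hp
    · obtain ⟨N, hNK, hNn, hNp⟩ := ih hK0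
      exact ⟨N, hNK.trans le_sup_left, hNn, hNp⟩

theorem exists_normal_prime_card_of_nontrivial {G : Type u} [Group G] [Finite G]
    (hG : Cfsg.IsSupersolvable G) (hnt : (⊤ : Subgroup G) ≠ ⊥) :
    ∃ N : Subgroup G, N.Normal ∧ (Nat.card N).Prime := by
  obtain ⟨N, -, h1, h2⟩ := exists_normal_prime_card (isSupersolvable_iff_reach.mp hG) hnt
  exact ⟨N, h1, h2⟩

theorem isCoatom_map_mk {G : Type u} [Group G] (N : Subgroup G) [N.Normal] (M : Subgroup G)
    (hM : IsCoatom M) (hNM : N ≤ M) : IsCoatom (M.map (QuotientGroup.mk' N)) := by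
  have hcm : (M.map (QuotientGroup.mk' N)).comap (QuotientGroup.mk' N) = M := by
    rw [Subgroup.comap_map_eq, QuotientGroup.ker_mk', sup_eq_left.mpr hNM]
  constructor
  · intro h
    apply hM.1
    rw [← hcm, h, Subgroup.comap_top]
  · intro L hL
    have h1 : M ≤ L.comap (QuotientGroup.mk' N) := by
      rw [← hcm]; exact Subgroup.comap_mono hL.le
    have h2 : M ≠ L.comap (QuotientGroup.mk' N) := by
      intro h
      apply hL.ne
      rw [h, Subgroup.map_comap_eq_self_of_surjective (QuotientGroup.mk'_surjective N)]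
    have h3 := hM.2 _ (lt_of_le_of_ne h1 h2)
    rw [← Subgroup.map_comap_eq_self_of_surjective (QuotientGroup.mk'_surjective N) L, h3,
      Subgroup.map_top_of_surjective _ (QuotientGroup.mk'_surjective N)]

theorem card_quotient_lt {G : Type u} [Group G] [Finite G] (N : Subgroup G) [N.Normal]
    (hN : N ≠ ⊥) : Nat.card (G ⧸ N) < Nat.card G := by
  have h1 := Subgroup.card_eq_card_quotient_mul_card_subgroup N
  have h2 : 1 < Nat.card N := (Subgroup.one_lt_card_iff_ne_bot N).mpr hN
  have h3 : 0 < Nat.card (G ⧸ N) := Nat.card_pos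
  rw [h1]
  nlinarith

theorem ne_bot_of_prime_card {G : Type u} [Group G] (N : Subgroup G) (hN : (Nat.card N).Prime) :
    N ≠ ⊥ := by
  intro h
  rw [h, Subgroup.card_bot] at hN
  exact Nat.not_prime_one hN

theorem coatom_index_prime : ∀ (n : ℕ) (G : Type u) [Group G] [Finite G], Nat.card G = n →
    Cfsg.IsSupersolvable G → ∀ M : Subgroup G, IsCoatom M → M.index.Prime := by
  intro n
  induction n using Nat.strong_induction_on with
  | _ n ih =>
    intro G _ _ hn hG M hM
    have htop : (⊤ : Subgroup G) ≠ ⊥ := by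
      intro h
      apply hM.1
      have : M ≤ ⊥ := h ▸ le_top
      rw [h]; exact le_bot_iff.mp this
    obtain ⟨N, hNn, hNp⟩ := exists_normal_prime_card_of_nontrivial hG htop
    haveI := hNn
    have hN0 := ne_bot_of_prime_card N hNp
    by_cases hNM : N ≤ M
    · have hcard : Nat.card (G ⧸ N) < n := hn ▸ card_quotient_lt N hN0
      have hq := ih _ hcard (G ⧸ N) rfl (isSupersolvable_quotient hG N)
        (M.map (QuotientGroup.mk' N)) (isCoatom_map_mk N M hM hNM)
      have hker : (QuotientGroup.mk' N).ker ≤ M := by rw [QuotientGroup.ker_mk']; exact hNM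
      rwa [Subgroup.index_map_eq M (QuotientGroup.mk'_surjective N) hker] at hq
    · have hsup : M ⊔ N = ⊤ :=
        hM.2 _ (lt_of_le_of_ne le_sup_left (fun h => hNM (h ▸ le_sup_right)))
      have hinf : Nat.card (M ⊓ N : Subgroup G) = 1 := by
        have hdvd : Nat.card (M ⊓ N : Subgroup G) ∣ Nat.card N :=
          Subgroup.card_dvd_of_le inf_le_right
        rcases (Nat.dvd_prime hNp).mp hdvd with h | h
        · exact h
        · exfalso
          apply hNM
          have : M ⊓ N = N := Subgroup.eq_of_le_of_card_ge inf_le_right h.ge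
          rw [← this]; exact inf_le_left
      have hmul := card_mul_card_eq_of_le_normalizer M N Subgroup.le_normalizer_of_normal
      rw [hsup, hinf, mul_one, Subgroup.card_top] at hmul
      have hidx := Subgroup.card_mul_index M
      have hMpos : 0 < Nat.card M := Nat.card_pos
      have : M.index = Nat.card N := by
        have : Nat.card M * M.index = Nat.card M * Nat.card N := by rw [hidx, hmul]
        exact Nat.eq_of_mul_eq_mul_left hMpos this
      rw [this]; exact hNp

end Cfsg.Agent.Helper3
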